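/-
2-groups in which every normal abelian subgroup is cyclic.
-/
import Cfsg.Agent.Lib.G.OddP
import Cfsg.Agent.Lib.Classical.Quat
import Cfsg.Agent.Lib.Classical.GroupAux
import Cfsg.Prelude.Def_CaseTheorems

set_option autoImplicit false
open Cfsg Subgroup

namespace CA.Two

variable {P : Type*} [Group P]

theorem int_sq_one {k : ℤ} {m : ℕ} (h : (2 : ℤ) ^ (m + 1) ∣ k * k - 1) :
    (2 : ℤ) ^ m ∣ k - 1 ∨ (2 : ℤ) ^ m ∣ k + 1 := by
  have h2 : (2 : ℤ) ∣ k * k - 1 := (dvd_pow_self 2 (Nat.succ_ne_zero m)).trans h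
  have hk : Odd k := by
    rcases Int.even_or_odd k with he | ho
    · exfalso
      have : (2 : ℤ) ∣ k * k := dvd_mul_of_dvd_left he.two_dvd k
      have := (dvd_sub_right this).1 h2
      omega
    · exact ho
  obtain ⟨j, rfl⟩ := hk
  have h3 : (2 : ℤ) ^ m ∣ (2 * j) * (j + 1) := by
    have : (2 : ℤ) ^ m * 2 ∣ ((2 * j) * (j + 1)) * 2 := by
      rw [← pow_succ]; convert h using 1; ring
    exact (mul_dvd_mul_iff_right two_ne_zero).1 this
  rcases Int.even_or_odd j with he | ho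
  · left
    have : IsCoprime ((2 : ℤ) ^ m) (j + 1) := by
      apply IsCoprime.pow_left
      obtain ⟨i, rfl⟩ := he
      exact ⟨-i, 1, by ring⟩
    simpa using this.dvd_of_dvd_mul_right h3
  · right
    have : IsCoprime ((2 : ℤ) ^ m) j := by
      apply IsCoprime.pow_left
      obtain ⟨i, rfl⟩ := ho
      exact ⟨-i, 1, by ring⟩
    have h4 : (2 : ℤ) ^ m ∣ j * (2 * j + 1 + 1) := by convert h3 using 1; ring
    exact this.dvd_of_dvd_mul_left h4

theorem exists_sq_mem' {A T : Subgroup P} (hP : IsPGroup 2 P) {g : P} (hgT : g ∈ T) (hg : g ∉ A) :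
    ∃ y ∈ T, y ∉ A ∧ y * y ∈ A := by
  obtain ⟨n, hn⟩ := hP g
  induction n generalizing g with
  | zero => exact absurd (by simp at hn; rw [hn]; exact A.one_mem) hg
  | succ n ih =>
    by_cases h : g * g ∈ A
    · exact ⟨g, hgT, hg, h⟩
    · exact ih (T.mul_mem hgT hgT) h (by rw [← pow_two, ← pow_mul, ← pow_succ']; exact hn)

theorem conj_zpow' (g x : P) (k : ℤ) : g * x ^ k * g⁻¹ = (g * x * g⁻¹) ^ k := conj_zpow.symm

/-- The setting: a self-centralizing cyclic normal subgroup `⟨x⟩` of order `2^(m+2)`. -/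
structure CycSC (x : P) (m : ℕ) : Prop where
  pg : IsPGroup 2 P
  ord : orderOf x = 2 ^ (m + 2)
  norm : ∀ g : P, g * x * g⁻¹ ∈ zpowers x
  cent : ∀ g : P, g * x = x * g → g ∈ zpowers x

namespace CycSC
variable {x : P} {m : ℕ}

theorem zpow_eq_one (h : CycSC x m) {k : ℤ} : x ^ k = 1 ↔ (2 : ℤ) ^ (m + 2) ∣ k := by
  rw [← orderOf_dvd_iff_zpow_eq_one, h.ord]; push_cast; rfl

theorem zpow_eq (h : CycSC x m) {k l : ℤ} : x ^ k = x ^ l ↔ (2 : ℤ) ^ (m + 2) ∣ k - l := by
  rw [← h.zpow_eq_one, zpow_sub, mul_inv_eq_one]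

theorem z_sq (h : CycSC x m) : x ^ (2 : ℤ) ^ (m + 1) * x ^ (2 : ℤ) ^ (m + 1) = 1 := by
  rw [← zpow_add, h.zpow_eq_one]; exact ⟨1, by ring⟩

theorem z_ne (h : CycSC x m) : x ^ (2 : ℤ) ^ (m + 1) ≠ 1 := by
  rw [Ne, h.zpow_eq_one]; intro h1
  have := Int.le_of_dvd (by positivity) h1
  have h2 : (0 : ℤ) < 2 ^ (m + 1) := by positivity
  rw [pow_succ _ (m + 1)] at this; omega

theorem eq_of_sq (h : CycSC x m) {a : P} (ha : a ∈ zpowers x) (h2 : a * a = 1) :
    a = 1 ∨ a = x ^ (2 : ℤ) ^ (m + 1) := by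
  obtain ⟨k, rfl⟩ := ha
  simp only at h2 ⊢
  rw [← zpow_add, h.zpow_eq_one] at h2
  obtain ⟨c, hc⟩ := h2
  have hk : k = 2 ^ (m + 1) * c := by rw [pow_succ] at hc; linarith
  rw [h.zpow_eq_one, h.zpow_eq, hk]
  rcases Int.even_or_odd c with ⟨d, rfl⟩ | ⟨d, rfl⟩
  · left; exact ⟨d, by ring⟩
  · right; exact ⟨d, by ring⟩

theorem z_central (h : CycSC x m) (g : P) : g * x ^ (2 : ℤ) ^ (m + 1) = x ^ (2 : ℤ) ^ (m + 1) * g := by
  have h1 : g * x ^ (2 : ℤ) ^ (m + 1) * g⁻¹ ∈ zpowers x := by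
    rw [conj_zpow']; exact zpow_mem (h.norm g) _
  rcases h.eq_of_sq h1 (by
    calc _ = g * (x ^ (2 : ℤ) ^ (m + 1) * x ^ (2 : ℤ) ^ (m + 1)) * g⁻¹ := by group
      _ = 1 := by rw [h.z_sq]; group) with h2 | h2
  · exact absurd (by simpa using h2) h.z_ne
  · exact mul_inv_eq_iff_eq_mul.1 h2

theorem comm_mem (h : CycSC x m) (g w : P) : w⁻¹ * (g * w * g⁻¹) ∈ zpowers x := by
  apply h.cent
  obtain ⟨k, hk⟩ := h.norm g⁻¹
  obtain ⟨l, hl⟩ := h.norm w
  simp only [inv_inv] at hk hl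
  have e1 : g * w * (g⁻¹ * x * g) * w⁻¹ * g⁻¹ = w * x * w⁻¹ := by
    obtain ⟨k', hk'⟩ := h.norm g
    simp only at hk'
    have e2 : w * (g⁻¹ * x * g) * w⁻¹ = g⁻¹ * (w * x * w⁻¹) * g := by
      rw [← hk, conj_zpow', ← hl, ← zpow_mul]
      have : g⁻¹ * x ^ l * g = (g⁻¹ * x * g) ^ l := by simpa using conj_zpow' g⁻¹ x l
      rw [this, ← hk, ← zpow_mul, mul_comm]
    calc _ = g * (w * (g⁻¹ * x * g) * w⁻¹) * g⁻¹ := by group
      _ = _ := by rw [e2]; group
  calc w⁻¹ * (g * w * g⁻¹) * x = w⁻¹ * (g * w * (g⁻¹ * x * g) * w⁻¹ * g⁻¹) * (g * w * g⁻¹) := by group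
    _ = _ := by rw [e1]; group

theorem no_four [Finite P] (h : CycSC x m) (hn : ∀ A : Subgroup P, A.Normal → IsMulCommutative A → IsCyclic A)
    {w : P} (hw : w ∉ zpowers x) (hw2 : w * w = 1)
    (hc : ∀ g : P, g * w * g⁻¹ = w ∨ g * w * g⁻¹ = w * x ^ (2 : ℤ) ^ (m + 1)) : False := by
  haveI : Fact (Nat.Prime 2) := ⟨Nat.prime_two⟩
  set z := x ^ (2 : ℤ) ^ (m + 1) with hz
  have h1 : Elem 2 1 (zpowers z) ⊤ := elem_one_zpowers (mem_top z) (by rw [pow_two]; exact h.z_sq) h.z_ne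
  have h2 : Elem 2 2 (zpowers z ⊔ zpowers w) ⊤ :=
    h1.sup_zpowers (mem_top w) (by rw [pow_two]; exact hw2)
      (fun h3 => hw (zpowers_le_of_mem (zpow_mem (mem_zpowers x) _) h3))
      (by rw [cent_zpowers, mem_cent1_iff]; exact h.z_central w)
  refine h2.not_isCyclic le_rfl (hn _ ?_ h2.comm)
  rw [PG.normal_iff_top_le]
  intro g _
  apply mem_normalizer_of_cj_le
  rw [cj_sup, cj_zpowers, cj_zpowers, sup_le_iff, zpowers_le, zpowers_le]
  have hzm : z ∈ zpowers z ⊔ zpowers w := mem_sup_left (mem_zpowers z)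
  have hwm : w ∈ zpowers z ⊔ zpowers w := mem_sup_right (mem_zpowers w)
  constructor
  · rw [h.z_central g]; simpa using hzm
  · rcases hc g with e | e <;> rw [e]
    · exact hwm
    · exact mul_mem hwm hzm

/-- An element acting as an involution: it acts as one of `-1`, `±1 + 2^(m+1)`. -/
theorem act_cases (h : CycSC x m) {y : P} (hy : y ∉ zpowers x) (hy2 : y * y ∈ zpowers x) :
    y * x * y⁻¹ = x * x ^ (2 : ℤ) ^ (m + 1) ∨ y * x * y⁻¹ = x⁻¹ ∨ y * x * y⁻¹ = x⁻¹ * x ^ (2 : ℤ) ^ (m + 1) := by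
  obtain ⟨k, hk⟩ := h.norm y
  simp only at hk
  have h1 : x ^ (k * k) = x ^ (1 : ℤ) := by
    rw [zpow_mul, hk, ← conj_zpow', hk, zpow_one]
    obtain ⟨l, hl⟩ := hy2
    simp only at hl
    calc y * (y * x * y⁻¹) * y⁻¹ = (y * y) * x * (y * y)⁻¹ := by group
      _ = x := by rw [← hl]; group
  rw [h.zpow_eq] at h1
  rcases int_sq_one h1 with ⟨c, hc⟩ | ⟨c, hc⟩
  · left
    have h2 : x ^ (k - 1) = 1 ∨ x ^ (k - 1) = x ^ (2 : ℤ) ^ (m + 1) :=
      h.eq_of_sq (zpow_mem (mem_zpowers x) _) (by rw [← zpow_add, h.zpow_eq_one, hc]; exact ⟨c, by ring⟩)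
    have h3 : x ^ k = x * x ^ (k - 1) := by group
    rcases h2 with h2 | h2
    · exfalso; apply hy; apply h.cent
      rw [h3, h2, mul_one] at hk
      exact mul_inv_eq_iff_eq_mul.1 hk.symm
    · rw [← hk, h3, h2]
  · right
    have h2 : x ^ (k + 1) = 1 ∨ x ^ (k + 1) = x ^ (2 : ℤ) ^ (m + 1) :=
      h.eq_of_sq (zpow_mem (mem_zpowers x) _) (by rw [← zpow_add, h.zpow_eq_one, hc]; exact ⟨c, by ring⟩)
    have h3 : x ^ k = x⁻¹ * x ^ (k + 1) := by group
    rcases h2 with h2 | h2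
    · left; rw [← hk, h3, h2, mul_one]
    · right; rw [← hk, h3, h2]

theorem not_modular [Finite P] (h : CycSC x (m + 1))
    (hn : ∀ A : Subgroup P, A.Normal → IsMulCommutative A → IsCyclic A)
    {y : P} (hy : y ∉ zpowers x) (hy2 : y * y ∈ zpowers x) :
    y * x * y⁻¹ ≠ x * x ^ (2 : ℤ) ^ (m + 2) := by
  intro e
  set z := x ^ (2 : ℤ) ^ (m + 2) with hz
  have hz2 : z * z = 1 := h.z_sq
  have hzc : ∀ g, g * z = z * g := h.z_central
  have hzx : Commute x z := hzc x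
  -- squares in the coset of an element acting like `y`
  have sq : ∀ w : P, w * x * w⁻¹ = x * z → ∀ i : ℤ, (w * x ^ i) * (w * x ^ i) = w * w * (x ^ (2 * i) * z ^ i) := by
    intro w hw i
    have e1 : w * x ^ i * w⁻¹ = x ^ i * z ^ i := by rw [conj_zpow', hw, hzx.mul_zpow]
    have e2 : w⁻¹ * x ^ i * w = x ^ i * z ^ i := by
      have c1 : Commute w (z ^ i) := Commute.zpow_right (hzc w) i
      have c2 : z ^ i * z ^ i = 1 := by rw [← (Commute.refl z).mul_zpow, hz2, one_zpow]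
      calc w⁻¹ * x ^ i * w = w⁻¹ * (x ^ i * z ^ i) * (z ^ i * w) := by
            rw [mul_assoc, mul_assoc, mul_assoc, ← mul_assoc (z ^ i), c2]; group
        _ = w⁻¹ * (w * x ^ i * w⁻¹) * (w * z ^ i) := by rw [e1, c1.eq]
        _ = _ := by group
    calc (w * x ^ i) * (w * x ^ i) = w * w * (w⁻¹ * x ^ i * w) * x ^ i := by group
      _ = w * w * (x ^ i * (z ^ i * x ^ i)) := by rw [e2]; group
      _ = _ := by rw [← (Commute.zpow_zpow hzx i i).eq]; group
  have zev : ∀ i : ℤ, z ^ (i + i) = 1 := fun i => by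
    rw [zpow_add, ← (Commute.refl z).mul_zpow, hz2, one_zpow]
  have zod : ∀ i : ℤ, z ^ (2 * i + 1) = z := fun i => by rw [zpow_add, two_mul, zev]; simp
  have act : ∀ i : ℤ, (y * x ^ i) * x * (y * x ^ i)⁻¹ = x * z := fun i => by rw [← e]; group
  have nmem : ∀ i : ℤ, y * x ^ i ∉ zpowers x := fun i h1 =>
    hy (by simpa using mul_mem h1 (inv_mem (zpow_mem (mem_zpowers x) i)))
  obtain ⟨w, hw, hw2, hwa⟩ : ∃ w, w ∉ zpowers x ∧ w * w = 1 ∧ w * x * w⁻¹ = x * z := by
    obtain ⟨l, hl⟩ := hy2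
    simp only at hl
    have e1 : z ^ l = 1 := by
      have : y * x ^ l * y⁻¹ = x ^ l * z ^ l := by rw [conj_zpow', e, hzx.mul_zpow]
      rw [hl] at this
      have h3 : y * (y * y) * y⁻¹ = y * y := by group
      rw [h3] at this
      exact (mul_eq_left.1 this.symm)
    rcases Int.even_or_odd l with ⟨j, rfl⟩ | ⟨j, rfl⟩
    swap
    · rw [zod] at e1; exact absurd e1 h.z_ne
    rcases Int.even_or_odd j with ⟨i, rfl⟩ | ⟨i, rfl⟩
    · refine ⟨y * x ^ (-i + -i), nmem _, ?_, act _⟩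
      rw [sq y e, ← hl, zev]; group
    · refine ⟨y * x ^ (2 * (2 ^ m - i - 1) + 1), nmem _, ?_, act _⟩
      rw [sq y e, ← hl, zod, ← mul_assoc, ← zpow_add, ← hz2]
      congr 2; ring
  refine h.no_four hn hw hw2 fun g => ?_
  obtain ⟨i, hi⟩ := h.comm_mem g w
  simp only at hi
  have e1 : g * w * g⁻¹ = w * x ^ i := by rw [hi]; group
  have e2 : x ^ (2 * i) * z ^ i = 1 := by
    have := sq w hwa i
    rw [← e1, hw2, one_mul] at this
    rw [← this]
    calc g * w * g⁻¹ * (g * w * g⁻¹) = g * (w * w) * g⁻¹ := by group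
      _ = 1 := by rw [hw2]; group
  rcases Int.even_or_odd i with ⟨j, rfl⟩ | ⟨j, rfl⟩
  · rw [zev, mul_one, two_mul, zpow_add] at e2
    rcases h.eq_of_sq (zpow_mem (mem_zpowers x) _) e2 with e3 | e3
    · left; rw [e1, e3, mul_one]
    · right; rw [e1, e3]
  · exfalso
    rw [zod, hz, ← zpow_add, h.zpow_eq_one] at e2
    obtain ⟨c, hc⟩ := e2
    have : 2 * (2 * j + 1) = 4 * (2 ^ (m + 1) * c - 2 ^ m) := by
      linear_combination hc
    omega

/-- Elements outside `⟨x⟩` invert the element of order four. -/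
theorem inverts_u [Finite P] (h : CycSC x m)
    (hn : ∀ A : Subgroup P, A.Normal → IsMulCommutative A → IsCyclic A)
    {g : P} (hg : g ∉ zpowers x) : g * x ^ (2 : ℤ) ^ m * g⁻¹ = (x ^ (2 : ℤ) ^ m)⁻¹ := by
  set u := x ^ (2 : ℤ) ^ m with hu
  have hu2 : u * u = x ^ (2 : ℤ) ^ (m + 1) := by rw [hu, ← zpow_add]; congr 1; ring
  have huu : u ≠ u⁻¹ := fun e => h.z_ne (by rw [← hu2]; exact mul_eq_one_iff_eq_inv.2 e)
  have hnc : g * u * g⁻¹ ≠ u := by
    intro e
    obtain ⟨y, hyT, hy, hy2⟩ := exists_sq_mem' (T := 𝐂[u]) h.pg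
      (mem_cent1_iff.2 (mul_inv_eq_iff_eq_mul.1 e)) hg
    have hyu : y * u * y⁻¹ = u := mul_inv_eq_iff_eq_mul.2 (mem_cent1_iff.1 hyT)
    cases m with
    | zero =>
      apply hy; apply h.cent
      have : u = x := by simp [hu]
      rw [← this]; exact mem_cent1_iff.1 hyT
    | succ m =>
      apply huu
      have hzx : Commute x⁻¹ (x ^ (2 : ℤ) ^ (m + 2)) := h.z_central _
      rcases h.act_cases hy hy2 with e1 | e1 | e1
      · exact absurd e1 (h.not_modular hn hy hy2)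
      · conv_lhs => rw [← hyu, hu, conj_zpow', e1]
        rw [hu, inv_zpow]
      · conv_lhs => rw [← hyu, hu, conj_zpow', e1, hzx.mul_zpow]
        have : (x ^ (2 : ℤ) ^ (m + 1 + 1)) ^ (2 : ℤ) ^ (m + 1) = 1 := by
          rw [← zpow_mul, h.zpow_eq_one]; exact ⟨2 ^ m, by ring⟩
        rw [this, hu, inv_zpow, mul_one]
  have h1 : u⁻¹ * (g * u * g⁻¹) ∈ zpowers x :=
    mul_mem (inv_mem (zpow_mem (mem_zpowers x) _)) (by rw [hu, conj_zpow']; exact zpow_mem (h.norm g) _)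
  have h2 : g * u * g⁻¹ ∈ zpowers x := by rw [hu, conj_zpow']; exact zpow_mem (h.norm g) _
  have hc : Commute u (g * u * g⁻¹) := by
    obtain ⟨k, hk⟩ := h2
    simp only at hk
    rw [← hk, hu]; exact Commute.zpow_zpow_self x _ _
  have h3 : u⁻¹ * (g * u * g⁻¹) * (u⁻¹ * (g * u * g⁻¹)) = 1 := by
    calc _ = u⁻¹ * ((g * u * g⁻¹) * u⁻¹) * (g * u * g⁻¹) := by group
      _ = (u * u)⁻¹ * (g * (u * u) * g⁻¹) := by rw [← hc.inv_left.eq]; group
      _ = 1 := by rw [hu2, h.z_central g]; group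
  rcases h.eq_of_sq h1 h3 with e | e
  · exact absurd (inv_mul_eq_one.1 e).symm hnc
  · rw [← hu2] at e
    have h4 : u * u * (u * u) = 1 := by rw [hu2]; exact h.z_sq
    calc g * u * g⁻¹ = u * (u⁻¹ * (g * u * g⁻¹)) := by group
      _ = u⁻¹ * (u * u * (u * u)) := by rw [e]; group
      _ = u⁻¹ := by rw [h4, mul_one]

theorem mul_mem_of_not_mem [Finite P] (h : CycSC x m)
    (hn : ∀ A : Subgroup P, A.Normal → IsMulCommutative A → IsCyclic A)
    {g g' : P} (hg : g ∉ zpowers x) (hg' : g' ∉ zpowers x) : g * g' ∈ zpowers x := by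
  by_contra h1
  have e1 := h.inverts_u hn hg
  have e2 := h.inverts_u hn hg'
  have e3 := h.inverts_u hn h1
  set u := x ^ (2 : ℤ) ^ m with hu
  have hu2 : u * u = x ^ (2 : ℤ) ^ (m + 1) := by rw [hu, ← zpow_add]; congr 1; ring
  apply h.z_ne
  rw [← hu2, mul_eq_one_iff_eq_inv, ← e3]
  calc u = (g * u * g⁻¹)⁻¹ := by rw [e1, inv_inv]
    _ = g * (g' * u * g'⁻¹) * g⁻¹ := by rw [e2]; group
    _ = _ := by group

theorem card_eq [Finite P] (h : CycSC x m)
    (hn : ∀ A : Subgroup P, A.Normal → IsMulCommutative A → IsCyclic A)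
    {y : P} (hy : y ∉ zpowers x) : Nat.card P = 2 ^ (m + 2 + 1) := by
  have : (zpowers x).index = 2 := by
    rw [index_eq_two_iff]
    refine ⟨y, fun b => ?_⟩
    by_cases hb : b ∈ zpowers x
    · exact Or.inr ⟨hb, fun h1 => hy (by simpa using mul_mem (inv_mem hb) h1)⟩
    · exact Or.inl ⟨h.mul_mem_of_not_mem hn hb hy, hb⟩
  rw [← (zpowers x).card_mul_index, this, Nat.card_zpowers, h.ord, pow_succ _ (m + 2)]

end CycSC

/-- A non-cyclic 2-group all of whose normal abelian subgroups are cyclic is quaternion, dihedral of order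
at least 16 or quasi-dihedral. -/
theorem classify [Finite P] (hP : IsPGroup 2 P)
    (hn : ∀ A : Subgroup P, A.Normal → IsMulCommutative A → IsCyclic A) (hc : ¬ IsCyclic P) :
    (∃ n : ℕ, 1 ≤ n ∧ Nonempty (P ≃* QuaternionGroup (2 ^ n))) ∨
      (∃ n : ℕ, 3 ≤ n ∧ Nonempty (P ≃* DihedralGroup (2 ^ n))) ∨ IsQuasiDihedral P := by
  haveI : Fact (Nat.Prime 2) := ⟨Nat.prime_two⟩
  obtain ⟨A, hA⟩ := exists_isSCN (P := (⊤ : Subgroup P)) (hP.to_subgroup _)
  have hAn : A.Normal := PG.normal_iff_top_le.2 hA.norm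
  obtain ⟨x, rfl⟩ := (Subgroup.isCyclic_iff_exists_zpowers_eq_top A).1 (hn A hAn hA.abelian)
  have hnorm : ∀ g : P, g * x * g⁻¹ ∈ zpowers x := fun g => hAn.conj_mem _ (mem_zpowers x) g
  have hcent : ∀ g : P, g * x = x * g → g ∈ zpowers x := fun g hg => by
    have : g ∈ ⊤ ⊓ 𝐂(zpowers x) := ⟨mem_top g, by rw [cent_zpowers]; exact mem_cent1_iff.2 hg⟩
    rwa [hA.cent_eq] at this
  obtain ⟨y, hy⟩ : ∃ y, y ∉ zpowers x := by
    by_contra! h1
    exact hc ⟨⟨x, h1⟩⟩
  obtain ⟨n, hn'⟩ := (IsPGroup.iff_orderOf.1 hP) x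
  have h2 : 2 ≤ n := by
    by_contra! h1
    apply hy; apply hcent
    have hx2 : x ^ (2 : ℤ) = 1 := by
      rw [← orderOf_dvd_iff_zpow_eq_one, hn']
      interval_cases n <;> simp
    obtain ⟨k, hk⟩ := hnorm y
    simp only at hk
    rcases Int.even_or_odd k with ⟨j, rfl⟩ | ⟨j, rfl⟩
    · rw [← two_mul, zpow_mul, hx2, one_zpow] at hk
      have : x = 1 := by simpa using hk.symm
      simp [this]
    · rw [zpow_add, zpow_mul, hx2, one_zpow, one_mul, zpow_one] at hk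
      exact mul_inv_eq_iff_eq_mul.1 hk.symm
  obtain ⟨m, rfl⟩ : ∃ m, n = m + 2 := ⟨n - 2, by omega⟩
  have h : CycSC x m := ⟨hP, hn', hnorm, hcent⟩
  have hy2 := h.mul_mem_of_not_mem hn hy hy
  have hcard := h.card_eq hn hy
  set z := x ^ (2 : ℤ) ^ (m + 1) with hz
  have hz2 : z * z = 1 := h.z_sq
  have hzc : ∀ g, g * z = z * g := h.z_central
  -- the case where `y` inverts `x`
  have inv : y * x * y⁻¹ = x⁻¹ →
      (∃ n : ℕ, 1 ≤ n ∧ Nonempty (P ≃* QuaternionGroup (2 ^ n))) ∨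
      (∃ n : ℕ, 3 ≤ n ∧ Nonempty (P ≃* DihedralGroup (2 ^ n))) := by
    intro e
    have e0 : ∀ a ∈ zpowers x, y * a * y⁻¹ = a⁻¹ := by
      rintro _ ⟨k, rfl⟩
      simp only
      rw [conj_zpow', e]; group
    have e1 : y * y * (y * y) = 1 := by
      have := e0 _ hy2
      rw [mul_eq_one_iff_eq_inv, ← this]; group
    rcases h.eq_of_sq hy2 e1 with e2 | e2
    · have hyi : y⁻¹ = y := inv_eq_of_mul_eq_one_right e2
      cases m with
      | zero =>
        exfalso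
        have key : ∀ a ∈ zpowers x, a * y * a⁻¹ = y ∨ a * y * a⁻¹ = y * z := by
          intro a ha
          have e3 : a * y * a⁻¹ = y * (a⁻¹ * a⁻¹) := by
            have := e0 _ (inv_mem ha)
            rw [inv_inv] at this
            calc a * y * a⁻¹ = (y * a⁻¹ * y⁻¹) * y * a⁻¹ := by rw [this]
              _ = _ := by group
          have e4 : (a⁻¹ * a⁻¹) * (a⁻¹ * a⁻¹) = 1 := by
            obtain ⟨k, rfl⟩ := ha
            simp only
            rw [← zpow_neg, ← zpow_add, ← zpow_add, h.zpow_eq_one]; exact ⟨-k, by ring⟩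
          rcases h.eq_of_sq (mul_mem (inv_mem ha) (inv_mem ha)) e4 with e5 | e5
          · left; rw [e3, e5, mul_one]
          · right; rw [e3, e5]
        refine h.no_four hn hy e2 fun g => ?_
        by_cases hg : g ∈ zpowers x
        · exact key g hg
        · have := key _ (h.mul_mem_of_not_mem hn hg hy)
          have e3 : g * y * y * (g * y)⁻¹ = g * y * g⁻¹ := by group
          rwa [e3] at this
      | succ m =>
        right
        refine ⟨m + 3, by omega, Cl.nonempty_equiv_dihedral x y hn' e2 (by rw [← e, hyi]) hy fun g => ?_⟩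
        by_cases hg : g ∈ zpowers x
        · exact Or.inl hg
        · exact Or.inr (h.mul_mem_of_not_mem hn hy hg)
    · left
      refine ⟨m + 1, by omega, Quat.nonempty_equiv (n := 2 ^ (m + 1)) ?_ x y (by rw [hn']; ring) ?_ ?_ ?_⟩
      · calc 2 = 2 ^ 1 := rfl
          _ ≤ _ := Nat.pow_le_pow_right (by norm_num) (by omega)
      · rw [e2, ← zpow_natCast]; push_cast; rfl
      · have := e0 _ (inv_mem (mem_zpowers x))
        rw [inv_inv] at this
        calc x * y = y * x⁻¹ * y⁻¹ * y := by rw [this]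
          _ = _ := by group
      · rw [hcard]; apply le_of_eq; ring
  cases m with
  | zero =>
    have := h.inverts_u hn hy
    simp only [pow_zero, zpow_one] at this
    rcases inv this with h1 | h1
    · exact Or.inl h1
    · exact Or.inr (Or.inl h1)
  | succ m =>
    rcases h.act_cases hy hy2 with e | e | e
    · exact absurd e (h.not_modular hn hy hy2)
    · rcases inv e with h1 | h1
      · exact Or.inl h1
      · exact Or.inr (Or.inl h1)
    · right; right
      have hzx : Commute x⁻¹ z := hzc _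
      have fin : ∀ w, w ∉ zpowers x → w * w = 1 → w * x * w⁻¹ = x⁻¹ * z → IsQuasiDihedral P := by
        intro w hw hw2 hwa
        refine ⟨m + 3, by omega, hcard, x, w, hn', ?_, ?_⟩
        · exact orderOf_eq_prime (by rw [pow_two]; exact hw2) (fun h1 => hw (h1 ▸ one_mem _))
        · rw [hwa, hz, ← zpow_natCast, Nat.cast_sub (Nat.one_le_two_pow)]
          push_cast
          group
      obtain ⟨l, hl⟩ := id hy2
      simp only at hl
      have e1 : x ^ l = x⁻¹ ^ l * z ^ l := by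
        rw [← hzx.mul_zpow, ← e, ← conj_zpow', hl]; group
      have zev : ∀ i : ℤ, z ^ (i + i) = 1 := fun i => by
        rw [zpow_add, ← (Commute.refl z).mul_zpow, hz2, one_zpow]
      have e2 : y * y * (y * y) = 1 := by
        rcases Int.even_or_odd l with ⟨j, rfl⟩ | ⟨j, rfl⟩
        · rw [zev, mul_one] at e1
          rw [← hl]; nth_rewrite 1 [e1]; group
        · exfalso
          rw [zpow_add z, two_mul j, zev, one_mul, zpow_one, hz, inv_zpow', ← zpow_add, h.zpow_eq] at e1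
          obtain ⟨c, hc⟩ := e1
          have : 2 * (2 * j + 1) = 4 * (2 ^ (m + 1) * c + 2 ^ m) := by
            linear_combination hc
          omega
      rcases h.eq_of_sq hy2 e2 with e3 | e3
      · exact fin y hy e3 e
      · refine fin (y * x) (fun h1 => hy (by simpa using mul_mem h1 (inv_mem (mem_zpowers x)))) ?_ ?_
        · calc y * x * (y * x) = (y * x * y⁻¹) * (y * y) * x := by group
            _ = x⁻¹ * (z * z) * x := by rw [e, e3, mul_assoc x⁻¹]
            _ = 1 := by rw [hz2]; group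
        · rw [← e]; group

end CA.Two
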