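import Mathlib

/-! MacWilliams' four-generator theorem, part 1: Alperin's theorem on a maximal normal abelian
subgroup of exponent dividing `4`, and the facts on its centralizer. -/

set_option autoImplicit false

namespace CA.MacW

open Subgroup

variable {G : Type*} [Group G]

theorem descent [Finite G] (hG : IsPGroup 2 G) (S good : G → Prop) (h1 : ¬ S 1)
    (step : ∀ t, S t → good t ∨ ∃ (g : G) (k : ℕ), S ((t⁻¹ * g * t * g⁻¹) ^ k)) {t : G}
    (ht : S t) : ∃ t, S t ∧ good t := by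
  have : Fact (Nat.Prime 2) := ⟨Nat.prime_two⟩
  obtain ⟨n, hn⟩ := (hG.isNilpotent).nilpotent'
  have key : ∀ n : ℕ, ∀ t, S t → t ∈ Subgroup.upperCentralSeries G n → ∃ t, S t ∧ good t := by
    intro n
    induction n with
    | zero =>
      intro t ht h
      rw [Subgroup.upperCentralSeries_zero, mem_bot] at h
      exact absurd (h ▸ ht) h1
    | succ n ih =>
      intro t ht h
      rcases step t ht with h' | ⟨g, k, h'⟩
      · exact ⟨t, ht, h'⟩
      · refine ih _ h' (pow_mem ?_ k)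
        have := Subgroup.mem_upperCentralSeries_succ_iff.1 (inv_mem h) g
        simpa [commutatorElement_def] using this
  exact key n t ht (hn ▸ mem_top t)

/-- a nontrivial normal subgroup of a finite `2`-group contains a nontrivial central element -/
theorem exists_central [Finite G] (hG : IsPGroup 2 G) (V : Subgroup G) [hV : V.Normal] {v : G}
    (hv : v ∈ V) (h1 : v ≠ 1) : ∃ a ∈ V, a ≠ 1 ∧ ∀ g, g * a * g⁻¹ = a := by
  obtain ⟨t, ht, h⟩ := descent hG (fun t => t ∈ V ∧ t ≠ 1) (fun t => ∀ g, g * t * g⁻¹ = t)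
    (by simp) (by
      intro t ht
      by_cases h : ∀ g, g * t * g⁻¹ = t
      · exact Or.inl h
      · push Not at h
        obtain ⟨g, hg⟩ := h
        refine Or.inr ⟨g, 1, ?_, ?_⟩
        · rw [pow_one, mul_assoc, mul_assoc, ← mul_assoc g]
          exact V.mul_mem (V.inv_mem ht.1) (hV.conj_mem _ ht.1 g)
        · rw [pow_one]
          intro e
          apply hg
          calc g * t * g⁻¹ = t * (t⁻¹ * g * t * g⁻¹) := by group
            _ = t := by rw [e, mul_one]) ⟨hv, h1⟩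
  exact ⟨t, ht.1, ht.2, h⟩

/-- along the powers `y ^ 2 ^ k` of an element of a `2`-group a property eventually holds -/
theorem exists_step (hG : IsPGroup 2 G) (P : G → Prop) (h1 : P 1) {y : G} (hy : ¬ P y) :
    ∃ k : ℕ, ¬ P (y ^ 2 ^ k) ∧ P ((y ^ 2 ^ k) ^ 2) := by
  classical
  obtain ⟨n, hn⟩ := hG y
  have hex : ∃ n : ℕ, P (y ^ 2 ^ n) := ⟨n, by rw [hn]; exact h1⟩
  have h0 : Nat.find hex ≠ 0 := by
    intro e
    have := Nat.find_spec hex
    rw [e] at this
    simp only [pow_zero, pow_one] at this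
    exact hy this
  obtain ⟨k, hk⟩ := Nat.exists_eq_succ_of_ne_zero h0
  refine ⟨k, Nat.find_min hex (by omega), ?_⟩
  have := Nat.find_spec hex
  rw [hk] at this
  rwa [← pow_mul, ← pow_succ]

/-- adjoining an element that is central modulo `V` -/
theorem ext_normal (V : Subgroup G) [hV : V.Normal] (hc : ∀ a ∈ V, ∀ b ∈ V, a * b = b * a) {e : ℕ}
    (he : ∀ a ∈ V, a ^ e = 1) {t : G} (ht : ∀ v ∈ V, v * t = t * v) (hte : t ^ e = 1)
    (hn : ∀ g, t⁻¹ * g * t * g⁻¹ ∈ V) :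
    ∃ A : Subgroup G, A.Normal ∧ (∀ a ∈ A, ∀ b ∈ A, a * b = b * a) ∧ (∀ a ∈ A, a ^ e = 1) ∧
      V ≤ A ∧ t ∈ A := by
  have hm : ∀ x, x ∈ V ⊔ zpowers t ↔ ∃ v ∈ V, ∃ n : ℤ, v * t ^ n = x := by
    intro x
    rw [mem_sup_of_normal_left]
    constructor
    · rintro ⟨v, hv, z, hz, rfl⟩
      obtain ⟨n, rfl⟩ := mem_zpowers_iff.1 hz
      exact ⟨v, hv, n, rfl⟩
    · rintro ⟨v, hv, n, rfl⟩
      exact ⟨v, hv, _, zpow_mem_zpowers t n, rfl⟩
  have tA : t ∈ V ⊔ zpowers t := mem_sup_right (mem_zpowers t)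
  refine ⟨V ⊔ zpowers t, ⟨?_⟩, ?_, ?_, le_sup_left, tA⟩
  · intro x hx g
    obtain ⟨v, hv, n, rfl⟩ := (hm x).1 hx
    have e1 : g * (v * t ^ n) * g⁻¹ = (g * v * g⁻¹) * (g * t * g⁻¹) ^ n := by
      rw [conj_zpow]; group
    rw [e1]
    refine mul_mem (mem_sup_left (hV.conj_mem _ hv g)) (zpow_mem ?_ n)
    have e2 : g * t * g⁻¹ = t * (t⁻¹ * g * t * g⁻¹) := by group
    rw [e2]
    exact mul_mem tA (mem_sup_left (hn g))
  · intro a ha b hb
    obtain ⟨v, hv, n, rfl⟩ := (hm a).1 ha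
    obtain ⟨w, hw, m, rfl⟩ := (hm b).1 hb
    have c1 : Commute v w := hc v hv w hw
    have c2 : Commute v t := ht v hv
    have c3 : Commute w t := ht w hw
    exact (Commute.mul_left (c1.mul_right (c2.zpow_right m))
      (((c3.zpow_right n).symm).mul_right (Commute.zpow_zpow_self t n m))).eq
  · intro a ha
    obtain ⟨v, hv, n, rfl⟩ := (hm a).1 ha
    have c2 : Commute v (t ^ n) := (show Commute v t from ht v hv).zpow_right n
    rw [c2.mul_pow, he v hv, one_mul, ← zpow_natCast, ← zpow_mul, mul_comm, zpow_mul, zpow_natCast,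
      hte, one_zpow]

/-- the setting: `W` is a normal abelian subgroup of exponent dividing `4` containing all elements
of order dividing `4` of its centralizer -/
structure Setup (W : Subgroup G) : Prop where
  p : IsPGroup 2 G
  normal : W.Normal
  comm : ∀ a ∈ W, ∀ b ∈ W, a * b = b * a
  exp : ∀ a ∈ W, a ^ 4 = 1
  alp : ∀ x, (∀ w ∈ W, w * x = x * w) → x ^ 4 = 1 → x ∈ W

/-- Alperin's theorem for exponent `4` -/
theorem exists_setup [Finite G] (hG : IsPGroup 2 G) : ∃ W : Subgroup G, Setup W := by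
  obtain ⟨W, hW, hmax⟩ := Set.Finite.exists_maximalFor (fun W : Subgroup G => W)
    {W | W.Normal ∧ (∀ a ∈ W, ∀ b ∈ W, a * b = b * a) ∧ ∀ a ∈ W, a ^ 4 = 1} (Set.toFinite _)
    ⟨⊥, inferInstance, by simp, by simp⟩
  obtain ⟨hn, hc, he⟩ := hW
  refine ⟨W, hG, hn, hc, he, ?_⟩
  intro x hx hx4
  by_contra hxW
  have start : ∃ t, (∀ w ∈ W, w * t = t * w) ∧ t ∉ W ∧ t ^ 2 ∈ W ∧ t ^ 4 = 1 := by
    by_cases h2 : x ^ 2 ∈ W
    · exact ⟨x, hx, hxW, h2, hx4⟩
    · refine ⟨x ^ 2, fun w hw => ((show Commute w x from hx w hw).pow_right 2).eq, h2, ?_, ?_⟩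
      · rw [← pow_mul]; rw [show 2 * 2 = 4 from rfl, hx4]; exact W.one_mem
      · rw [← pow_mul, mul_comm, pow_mul, hx4, one_pow]
  obtain ⟨t0, ht0⟩ := start
  obtain ⟨t, ⟨ht, htW, -, ht4⟩, hg⟩ := descent hG
    (fun t => (∀ w ∈ W, w * t = t * w) ∧ t ∉ W ∧ t ^ 2 ∈ W ∧ t ^ 4 = 1)
    (fun t => ∀ g, t⁻¹ * g * t * g⁻¹ ∈ W) (by simp) (by
      rintro t ⟨ht, htW, ht2, ht4⟩
      by_cases h : ∀ g, t⁻¹ * g * t * g⁻¹ ∈ W
      · exact Or.inl h
      push Not at h
      obtain ⟨g, hg⟩ := h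
      obtain ⟨k, hk1, hk2⟩ := exists_step hG (fun y => y ∈ W) W.one_mem hg
      set s := g * t * g⁻¹ with hs
      have hsC : ∀ w ∈ W, w * s = s * w := by
        intro w hw
        have := ht _ (hn.conj_mem _ hw g⁻¹)
        calc w * s = g * (g⁻¹ * w * g⁻¹⁻¹ * t) * g⁻¹ := by rw [hs]; group
          _ = g * (t * (g⁻¹ * w * g⁻¹⁻¹)) * g⁻¹ := by rw [this]
          _ = s * w := by rw [hs]; group
      have hs2 : s ^ 2 ∈ W := by rw [hs, conj_pow]; exact hn.conj_mem _ ht2 g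
      have hs4 : s ^ 4 = 1 := by rw [hs, conj_pow, ht4]; group
      have ey : t⁻¹ * g * t * g⁻¹ = t⁻¹ * s := by rw [hs]; group
      rw [ey] at hk1 hk2
      have hyC : ∀ w ∈ W, Commute w (t⁻¹ * s) := fun w hw =>
        (show Commute w t from ht w hw).inv_right.mul_right (hsC w hw)
      refine Or.inr ⟨g, 2 ^ k, ?_⟩
      rw [ey]
      refine ⟨fun w hw => ((hyC w hw).pow_right _).eq, hk1, hk2, ?_⟩
      set u := s ^ 2 * (t ^ 2)⁻¹ with hu
      have huW : u ∈ W := W.mul_mem hs2 (W.inv_mem ht2)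
      have hu2 : u ^ 2 = 1 := by
        have c : Commute (s ^ 2) (t ^ 2)⁻¹ := hc _ hs2 _ (W.inv_mem ht2)
        rw [hu, c.mul_pow, ← pow_mul, inv_pow, ← pow_mul, show 2 * 2 = 4 from rfl, hs4, ht4]
        simp
      have e1 : t * (t⁻¹ * s) * t⁻¹ = (t⁻¹ * s)⁻¹ * u := by
        have c1 : s ^ 2 * (s⁻¹ * t) = (s⁻¹ * t) * s ^ 2 :=
          ((show Commute (s ^ 2) s from hsC _ hs2).inv_right.mul_right (ht _ hs2)).eq
        calc t * (t⁻¹ * s) * t⁻¹ = (s ^ 2 * (s⁻¹ * t)) * (t ^ 2)⁻¹ := by group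
          _ = (t⁻¹ * s)⁻¹ * u := by rw [c1, hu]; group
      have e2 : t * ((t⁻¹ * s) ^ 2 ^ k) ^ 2 * t⁻¹ = (((t⁻¹ * s) ^ 2 ^ k) ^ 2)⁻¹ := by
        rw [← pow_mul, ← conj_pow, e1, ((hyC u huW).symm.inv_left).mul_pow, mul_comm (2 ^ k) 2,
          pow_mul u, hu2, one_pow, mul_one, inv_pow]
      have e3 := ht _ hk2
      rw [← e3, mul_inv_cancel_right] at e2
      rw [show 4 = 2 + 2 from rfl, pow_add]
      exact mul_eq_one_iff_eq_inv.2 e2) ht0
  have := hn
  obtain ⟨A, hA1, hA2, hA3, hA4, hA5⟩ := ext_normal W hc he ht ht4 hg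
  exact htW (hmax ⟨hA1, hA2, hA3⟩ hA4 hA5)

namespace Setup

variable {W : Subgroup G} (h : Setup W)
include h

/-- the elements of order dividing `2` of `W` -/
def V : Subgroup G where
  carrier := {w | w ∈ W ∧ w ^ 2 = 1}
  one_mem' := ⟨W.one_mem, one_pow _⟩
  mul_mem' := by
    rintro a b ⟨ha, ha2⟩ ⟨hb, hb2⟩
    exact ⟨W.mul_mem ha hb, by
      rw [(show Commute a b from h.comm a ha b hb).mul_pow, ha2, hb2, one_mul]⟩
  inv_mem' := by
    rintro a ⟨ha, ha2⟩
    exact ⟨W.inv_mem ha, by rw [inv_pow, ha2, inv_one]⟩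

theorem mem_V {w : G} : w ∈ h.V ↔ w ∈ W ∧ w ^ 2 = 1 := Iff.rfl

theorem V_normal : h.V.Normal := ⟨by
  rintro a ⟨ha, ha2⟩ g
  exact ⟨h.normal.conj_mem _ ha g, by rw [conj_pow, ha2]; group⟩⟩

theorem sq_mem_V {w : G} (hw : w ∈ W) : w ^ 2 ∈ h.V :=
  ⟨W.pow_mem hw 2, by rw [← pow_mul]; exact h.exp w hw⟩

theorem mem_V_of_C {c : G} (hc : c ∈ centralizer (W : Set G)) (h2 : c ^ 2 = 1) : c ∈ h.V :=
  ⟨h.alp c (fun w hw => mem_centralizer_iff.1 hc w hw)
    (by rw [show 4 = 2 * 2 from rfl, pow_mul, h2, one_pow]), h2⟩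

theorem W_le_C : W ≤ centralizer (W : Set G) := fun a ha =>
  mem_centralizer_iff.2 fun w hw => h.comm w hw a ha

theorem C_normal : (centralizer (W : Set G)).Normal := by
  have := h.normal
  infer_instance

/-- an element of `C` of order more than `2` has a power of order `4`, in `W` -/
theorem exists_pow {c : G} (hc : c ∈ centralizer (W : Set G)) (h2 : c ^ 2 ≠ 1) :
    ∃ k : ℕ, c ^ k ∈ W ∧ (c ^ k) ^ 2 ≠ 1 := by
  obtain ⟨k, hk1, hk2⟩ := exists_step h.p (fun y => y ^ 2 = 1) (one_pow _) h2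
  refine ⟨2 ^ k, h.alp _ (fun w hw => mem_centralizer_iff.1 (pow_mem hc _) w hw) ?_, hk1⟩
  rw [show 4 = 2 * 2 from rfl, pow_mul]
  exact hk2

/-- `x` inverts only elements of order at most `2` of `W` -/
def Inv (_ : Setup W) (x : G) : Prop := ∀ w ∈ W, x * w * x⁻¹ = w⁻¹ → w ^ 2 = 1

/-- `x` fixes only elements of order at most `2` of `W` -/
def Fpf (_ : Setup W) (x : G) : Prop := ∀ w ∈ W, x * w * x⁻¹ = w → w ^ 2 = 1

theorem inv_C {x c : G} (hx : h.Inv x) (hc : c ∈ centralizer (W : Set G))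
    (e : x * c * x⁻¹ = c⁻¹) : c ∈ h.V := by
  refine h.mem_V_of_C hc ?_
  by_contra h2
  obtain ⟨k, hk1, hk2⟩ := h.exists_pow hc h2
  exact hk2 (hx _ hk1 (by rw [← conj_pow, e, inv_pow]))

theorem fpf_C {x c : G} (hx : h.Fpf x) (hc : c ∈ centralizer (W : Set G))
    (e : x * c * x⁻¹ = c) : c ∈ h.V := by
  refine h.mem_V_of_C hc ?_
  by_contra h2
  obtain ⟨k, hk1, hk2⟩ := h.exists_pow hc h2
  exact hk2 (hx _ hk1 (by rw [← conj_pow, e]))

theorem inv_of_C {x : G} (hx : x ∈ centralizer (W : Set G)) : h.Inv x := by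
  intro w hw e
  rw [← mem_centralizer_iff.1 hx w hw, mul_inv_cancel_right] at e
  rw [pow_two]
  exact mul_eq_one_iff_eq_inv.2 e

/-- fibres of squaring on `C` -/
theorem sq_eq {a b : G} (ha : a ∈ centralizer (W : Set G)) (hb : b ∈ centralizer (W : Set G))
    (e : a ^ 2 = b ^ 2) : a * b⁻¹ ∈ h.V := by
  refine h.inv_C (h.inv_of_C ha) (mul_mem ha (inv_mem hb)) ?_
  calc a * (a * b⁻¹) * a⁻¹ = a ^ 2 * b⁻¹ * a⁻¹ := by rw [pow_two]; group
    _ = b ^ 2 * b⁻¹ * a⁻¹ := by rw [e]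
    _ = (a * b⁻¹)⁻¹ := by group

/-- counting squares in a subgroup of `C` -/
theorem card_sq [Finite G] (hV : Nat.card h.V ≤ 4) {D : Subgroup G}
    (hD : D ≤ centralizer (W : Set G)) (S : Set G) (hS : ∀ d ∈ D, d ^ 2 ∈ S) :
    Nat.card D ≤ 4 * S.ncard := by
  classical
  have hf : (D : Set G).Finite := Set.toFinite _
  have hs : S.Finite := Set.toFinite _
  have := Finset.card_le_mul_card_image_of_maps_to (f := fun d : G => d ^ 2) (s := hf.toFinset)
    (t := hs.toFinset) (by simpa using hS) 4 (by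
      intro b _
      by_cases hb : ∃ d ∈ D, d ^ 2 = b
      · obtain ⟨d, hd, rfl⟩ := hb
        refine le_trans ?_ hV
        have hv : (h.V : Set G).Finite := Set.toFinite _
        rw [show Nat.card h.V = hv.toFinset.card from by
          rw [← Set.ncard_eq_toFinset_card _ hv]; rfl]
        refine Finset.card_le_card_of_injOn (fun a => a * d⁻¹) ?_ ?_
        · intro a ha
          simp only [Finset.coe_filter, Set.Finite.mem_toFinset, SetLike.mem_coe,
            Set.mem_ofPred_eq] at ha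
          simp only [Set.Finite.coe_toFinset, SetLike.mem_coe]
          exact h.sq_eq (hD ha.1) (hD hd) ha.2
        · intro a _ b _ e
          exact mul_right_cancel e
      · rw [Finset.card_eq_zero.2]
        · omega
        · ext a
          simp only [Finset.mem_filter, Set.Finite.mem_toFinset, SetLike.mem_coe,
            Finset.notMem_empty, iff_false, not_and]
          exact fun ha e => hb ⟨a, ha, e⟩)
  rw [← Set.ncard_eq_toFinset_card _ hf, ← Set.ncard_eq_toFinset_card _ hs] at this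
  exact this

/-- an element whose square is the square of an element of `C` can be corrected -/
theorem correct {y d : G} (hd : d ∈ centralizer (W : Set G)) (e : y ^ 2 = d ^ 2) :
    (y * d⁻¹) ^ 2 ∈ h.V := by
  have hn := h.C_normal
  have h1 : y * d * y⁻¹ ∈ centralizer (W : Set G) := hn.conj_mem _ hd y
  have h2 : (y * d * y⁻¹) ^ 2 = d ^ 2 := by rw [conj_pow, ← e]; group
  have h3 := h.sq_eq hd h1 h2.symm
  have h4 : (y * d⁻¹) ^ 2 = d⁻¹ * (d * (y * d * y⁻¹)⁻¹) * d := by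
    calc (y * d⁻¹) ^ 2 = (y * d * y⁻¹)⁻¹ * y ^ 2 * d⁻¹ := by rw [pow_two]; group
      _ = (y * d * y⁻¹)⁻¹ * d ^ 2 * d⁻¹ := by rw [e]
      _ = d⁻¹ * (d * (y * d * y⁻¹)⁻¹) * d := by group
  rw [h4]
  have := h.V_normal.conj_mem _ h3 d⁻¹
  rwa [inv_inv] at this

/-- an invariant coset of `C` containing an involution inverting nothing of order four gives a
normal elementary abelian subgroup -/
theorem lemmaN0 [Finite G]
    (nE : ∀ A : Subgroup G, A.Normal → IsMulCommutative A → (∀ a ∈ A, a ^ 2 = 1) → Nat.card A ≤ 4)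
    (hV : 4 ≤ Nat.card h.V) {t : G} (h2 : t ^ 2 = 1) (hT : ∀ v ∈ h.V, v * t = t * v)
    (hC : t ∉ centralizer (W : Set G)) (hI : h.Inv t)
    (hg : ∀ g, t⁻¹ * g * t * g⁻¹ ∈ centralizer (W : Set G)) : False := by
  have := h.V_normal
  obtain ⟨A, hA1, hA2, hA3, hA4, hA5⟩ := ext_normal h.V
    (fun a ha b hb => h.comm a ha.1 b hb.1) (e := 2) (fun a ha => ha.2) hT h2 (by
      intro g
      refine h.inv_C hI (hg g) ?_
      have ht : t⁻¹ = t := by rw [pow_two] at h2; exact inv_eq_of_mul_eq_one_right h2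
      calc t * (t⁻¹ * g * t * g⁻¹) * t⁻¹ = g * t * g⁻¹ * t⁻¹ := by group
        _ = g * t⁻¹ * g⁻¹ * t := by rw [ht]
        _ = (t⁻¹ * g * t * g⁻¹)⁻¹ := by group)
  have hc := nE A hA1 ⟨⟨fun a b => Subtype.ext (hA2 a a.2 b b.2)⟩⟩ hA3
  have := eq_of_le_of_card_ge hA4 (hc.trans hV)
  exact hC (h.W_le_C (this ▸ hA5 : t ∈ h.V).1)

end Setup

end CA.MacW
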