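import Cfsg.Agent.Lib.Two.MacW1

/-! MacWilliams' four-generator theorem, part 2: the action on `W`. -/

set_option autoImplicit false
set_option linter.unusedSectionVars false

namespace CA.MacW

open Subgroup

variable {G : Type*} [Group G]

/-- the commutator `x w x⁻¹ w⁻¹` -/
def dl (x w : G) : G := x * w * x⁻¹ * w⁻¹

theorem dl_conj (g x w : G) : dl (g * x * g⁻¹) w = g * dl x (g⁻¹ * w * g) * g⁻¹ := by
  simp only [dl]; group

theorem comm_mem {H M : Subgroup G} (hsq : ∀ x ∈ H, x ^ 2 ∈ M) {x y : G} (hx : x ∈ H) (hy : y ∈ H) :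
    x⁻¹ * y * x * y⁻¹ ∈ M := by
  have e : x⁻¹ * y * x * y⁻¹ = x⁻¹ ^ 2 * (x * y) ^ 2 * y⁻¹ ^ 2 := by
    simp only [pow_two]; group
  rw [e]
  exact mul_mem (mul_mem (hsq _ (inv_mem hx)) (hsq _ (mul_mem hx hy))) (hsq _ (inv_mem hy))

theorem relIndex_le_two {K H : Subgroup G} (h : ∀ a ∈ H, ∀ b ∈ H, a ∉ K → b ∉ K → a * b ∈ K) :
    K.relIndex H ≤ 2 := by
  by_cases hk : H ≤ K
  · rw [relIndex_eq_one.2 hk]; omega
  · obtain ⟨a, ha, haK⟩ := SetLike.not_le_iff_exists.1 hk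
    refine le_of_eq (index_eq_two_iff.2 ⟨⟨a, ha⟩, fun b => ?_⟩)
    simp only [mem_subgroupOf, coe_mul]
    by_cases hb : (b : G) ∈ K
    · exact Or.inr ⟨hb, fun e => haK ((K.mul_mem_cancel_left hb).1 e)⟩
    · exact Or.inl ⟨h b b.2 a ha hb haK, hb⟩

theorem card_eq (K H : Subgroup G) : Nat.card H = Nat.card (K ⊓ H : Subgroup G) * K.relIndex H := by
  rw [relIndex, ← card_mul_index (K.subgroupOf H), ← inf_subgroupOf_right,
    Nat.card_congr (subgroupOfEquivOfLe (inf_le_right : K ⊓ H ≤ H)).toEquiv]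

theorem four [Finite G] {V : Subgroup G} (hV : Nat.card V ≤ 4) {p q : G} (hp : p ∈ V) (hq : q ∈ V)
    (p1 : p ≠ 1) (q1 : q ≠ 1) (pq : p ≠ q) (q2 : q * q = 1) :
    4 ≤ Nat.card V ∧ ∀ v ∈ V, v = 1 ∨ v = p ∨ v = q ∨ v = p * q := by
  classical
  have hsub : ({1, p, q, p * q} : Set G) ⊆ V := by
    intro x hx
    rcases hx with rfl | rfl | rfl | rfl
    exacts [V.one_mem, hp, hq, V.mul_mem hp hq]
  have h1 : p * q ≠ 1 := fun e => pq (mul_right_cancel (e.trans q2.symm))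
  have h2 : p * q ≠ p := by simpa using q1
  have h3 : p * q ≠ q := by simpa using p1
  have hc : ({1, p, q, p * q} : Set G).ncard = 4 := by
    rw [Set.ncard_insert_of_notMem (by simp [p1.symm, q1.symm, h1.symm]),
      Set.ncard_insert_of_notMem (by simp [pq, q1]), Set.ncard_pair h3.symm]
  have hv : (V : Set G).ncard = Nat.card V := rfl
  have hle := Set.ncard_le_ncard hsub
  refine ⟨by omega, fun v hv' => ?_⟩
  have := Set.eq_of_subset_of_ncard_le hsub (by omega)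
  have hv2 : v ∈ ({1, p, q, p * q} : Set G) := this ▸ hv'
  simpa using hv2

namespace Setup

variable {W : Subgroup G} (h : Setup W)
include h

/-- the centralizer of `V` -/
def T : Subgroup G := centralizer (h.V : Set G)

theorem mem_T {x : G} : x ∈ h.T ↔ ∀ v ∈ h.V, v * x = x * v := mem_centralizer_iff

theorem T_conj {x v : G} (hx : x ∈ h.T) (hv : v ∈ h.V) : x * v * x⁻¹ = v := by
  rw [← h.mem_T.1 hx v hv, mul_inv_cancel_right]

theorem mem_T_of {x : G} (hx : ∀ v ∈ h.V, x * v * x⁻¹ = v) : x ∈ h.T :=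
  h.mem_T.2 fun v hv => by
    conv_lhs => rw [← hx v hv]
    group

theorem T_normal : h.T.Normal := by
  have := h.V_normal
  unfold T
  infer_instance

theorem C_le_T : centralizer (W : Set G) ≤ h.T := centralizer_le fun _ hv => hv.1

theorem V_mul_self {v : G} (hv : v ∈ h.V) : v * v = 1 := by rw [← pow_two]; exact hv.2

theorem V_comm {v w : G} (hv : v ∈ h.V) (hw : w ∈ h.V) : v * w = w * v := h.comm _ hv.1 _ hw.1

theorem dl_W (x : G) {w : G} (hw : w ∈ W) : dl x w ∈ W :=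
  mul_mem (h.normal.conj_mem _ hw x) (inv_mem hw)

theorem dl_V {x w : G} (hx : x ∈ h.T) (hw : w ∈ W) : dl x w ∈ h.V := by
  refine ⟨h.dl_W x hw, ?_⟩
  have c : Commute (x * w * x⁻¹) w⁻¹ := h.comm _ (h.normal.conj_mem _ hw x) _ (inv_mem hw)
  rw [dl, c.mul_pow, conj_pow, h.T_conj hx (h.sq_mem_V hw), inv_pow, mul_inv_cancel]

theorem dl_mul_left {x y w : G} (hx : x ∈ h.T) (hy : y ∈ h.T) (hw : w ∈ W) :
    dl (x * y) w = dl x w * dl y w := by
  rw [h.V_comm (h.dl_V hx hw) (h.dl_V hy hw)]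
  calc dl (x * y) w = (x * dl y w * x⁻¹) * dl x w := by simp only [dl]; group
    _ = _ := by rw [h.T_conj hx (h.dl_V hy hw)]

theorem dl_mul_right (x : G) {w w' : G} (hw : w ∈ W) (hw' : w' ∈ W) :
    dl x (w * w') = dl x w * dl x w' := by
  calc dl x (w * w') = x * w * x⁻¹ * (dl x w' * w⁻¹) := by simp only [dl]; group
    _ = x * w * x⁻¹ * (w⁻¹ * dl x w') := by rw [h.comm _ (h.dl_W x hw') _ (inv_mem hw)]
    _ = _ := by simp only [dl]; group

theorem dl_eq_one {x v : G} (hx : x ∈ h.T) (hv : v ∈ h.V) : dl x v = 1 := by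
  rw [dl, h.T_conj hx hv, mul_inv_cancel]

theorem dl_congr {x w w' : G} (hx : x ∈ h.T) (hw : w ∈ W) (hw' : w' ∈ W) (e : w ^ 2 = w' ^ 2) :
    dl x w = dl x w' := by
  have hv := h.sq_eq (h.W_le_C hw) (h.W_le_C hw') e
  calc dl x w = dl x ((w * w'⁻¹) * w') := by rw [inv_mul_cancel_right]
    _ = _ := by rw [h.dl_mul_right x hv.1 hw', h.dl_eq_one hx hv, one_mul]

theorem dl_C {x w : G} (hx : x ∈ centralizer (W : Set G)) (hw : w ∈ W) : dl x w = 1 := by
  rw [dl, ← mem_centralizer_iff.1 hx w hw]; group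

theorem mem_C_of {x : G} (hx : ∀ w ∈ W, dl x w = 1) : x ∈ centralizer (W : Set G) :=
  mem_centralizer_iff.2 fun w hw => by
    have := hx w hw
    calc w * x = (dl x w) * (w * x) := by rw [this, one_mul]
      _ = x * w := by simp only [dl]; group

theorem dl_inv {x w : G} (hx : x ∈ h.T) (hw : w ∈ W) : dl x⁻¹ w = dl x w := by
  have h1 := h.dl_mul_left (inv_mem hx) hx hw
  rw [inv_mul_cancel, h.dl_C (one_mem _) hw] at h1
  exact mul_right_cancel (h1.symm.trans (h.V_mul_self (h.dl_V hx hw)).symm)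

theorem dl_conj_T {g x w : G} (hg : g ∈ h.T) (hx : x ∈ h.T) (hw : w ∈ W) :
    dl (g * x * g⁻¹) w = dl x w := by
  rw [h.dl_mul_left (mul_mem hg hx) (inv_mem hg) hw, h.dl_mul_left hg hx hw, h.dl_inv hg hw,
    h.V_comm (h.dl_V hg hw) (h.dl_V hx hw), mul_assoc, h.V_mul_self (h.dl_V hg hw), mul_one]

theorem sq_C {x : G} (hx : x ∈ h.T) : x ^ 2 ∈ centralizer (W : Set G) :=
  h.mem_C_of fun w hw => by rw [pow_two, h.dl_mul_left hx hx hw, h.V_mul_self (h.dl_V hx hw)]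

theorem comm_C {x y : G} (hx : x ∈ h.T) (hy : y ∈ h.T) :
    x⁻¹ * y * x * y⁻¹ ∈ centralizer (W : Set G) :=
  comm_mem (fun _ hz => h.sq_C hz) hx hy

/-- the homomorphism `x ↦ [x, w]` -/
def psi {w : G} (hw : w ∈ W) : h.T →* h.V where
  toFun x := ⟨dl (x : G) w, h.dl_V x.2 hw⟩
  map_one' := Subtype.ext (h.dl_C (one_mem _) hw)
  map_mul' x y := Subtype.ext (h.dl_mul_left x.2 y.2 hw)

theorem psi_apply {w : G} (hw : w ∈ W) (x : h.T) : (h.psi hw x : G) = dl (x : G) w := rfl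

theorem relIndex_C (H : Subgroup G) {E : Type*} [Group E] (f : h.T →* E)
    (hf : f.ker = (centralizer (W : Set G)).subgroupOf h.T) :
    (centralizer (W : Set G)).relIndex H =
      Nat.card ((H.subgroupOf h.T).map f) * h.T.relIndex H := by
  rw [← relIndex_ker, hf, ← inf_subgroupOf_left H h.T, relIndex_subgroupOf inf_le_left,
    relIndex_inf_mul_relIndex, inf_eq_left.2 h.C_le_T]

/-- the structure of `V` under the action of `G` -/
theorem V_struct [Finite G] (hV : Nat.card h.V ≤ 4) {g : G} (hg : g ∉ h.T) :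
    ∃ α ∈ h.V, ∃ β ∈ h.V, α ≠ 1 ∧ (∀ x, x * α * x⁻¹ = α) ∧
      (∀ v ∈ h.V, v = 1 ∨ v = α ∨ v = β ∨ v = α * β) ∧ ∀ x, x ∉ h.T → x * β * x⁻¹ = α * β := by
  have := h.V_normal
  have : ∃ v ∈ h.V, g * v * g⁻¹ ≠ v := by
    by_contra hh
    push Not at hh
    exact hg (h.mem_T_of hh)
  obtain ⟨β, hβ, hgβ⟩ := this
  have β1 : β ≠ 1 := by rintro rfl; simp at hgβ
  obtain ⟨α, hα, α1, hc⟩ := exists_central h.p h.V hβ β1
  have αβ : α ≠ β := by rintro rfl; exact hgβ (hc g)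
  have h4 := (four hV hα hβ α1 β1 αβ (h.V_mul_self hβ)).2
  refine ⟨α, hα, β, hβ, α1, hc, h4, fun x hx => ?_⟩
  rcases h4 _ (h.V_normal.conj_mem _ hβ x) with e | e | e | e
  · exact absurd (by simpa using e) β1
  · exfalso
    apply αβ
    calc α = x⁻¹ * α * x⁻¹⁻¹ := (hc _).symm
      _ = β := by rw [← e]; group
  · exfalso
    refine hx (h.mem_T_of fun v hv => ?_)
    rcases h4 v hv with rfl | rfl | rfl | rfl
    · group
    · exact hc x
    · exact e
    · rw [← conj_mul, hc, e]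
  · exact e

theorem relIndex_T [Finite G] (hV : Nat.card h.V ≤ 4) (H : Subgroup G) : h.T.relIndex H ≤ 2 := by
  refine relIndex_le_two fun x _ y _ hx hy => ?_
  obtain ⟨α, hα, β, hβ, α1, hc, h4, hn⟩ := h.V_struct hV hx
  have e : x * y * β * (x * y)⁻¹ = β := by
    calc x * y * β * (x * y)⁻¹ = x * (y * β * y⁻¹) * x⁻¹ := by group
      _ = β := by rw [hn y hy, ← conj_mul, hc, hn x hx, ← mul_assoc, h.V_mul_self hα, one_mul]
  refine h.mem_T_of fun v hv => ?_
  rcases h4 v hv with rfl | rfl | rfl | rfl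
  · group
  · exact hc _
  · exact e
  · rw [← conj_mul, hc, e]

/-- the case where `W` has at most one nontrivial square -/
theorem small_case [Finite G] (hV : Nat.card h.V ≤ 4) {a : G} (ha : a ∈ W)
    (hW : ∀ w ∈ W, w ^ 2 = 1 ∨ w ^ 2 = a ^ 2) {H M : Subgroup G} (hsq : ∀ x ∈ H, x ^ 2 ∈ M) :
    (centralizer (W : Set G)).relIndex H < 8 * (centralizer (W : Set G)).relIndex M := by
  have hker : (h.psi ha).ker = (centralizer (W : Set G)).subgroupOf h.T := by
    ext x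
    rw [MonoidHom.mem_ker, mem_subgroupOf, Subtype.ext_iff, psi_apply]
    refine ⟨fun e => h.mem_C_of fun w hw => ?_, fun e => h.dl_C e ha⟩
    rcases hW w hw with e' | e'
    · exact h.dl_eq_one x.2 ⟨hw, e'⟩
    · rw [h.dl_congr x.2 hw ha e']; exact e
  have e1 := h.relIndex_C H _ hker
  have j2 := h.relIndex_T hV H
  have k4 : Nat.card ((H.subgroupOf h.T).map (h.psi ha)) ≤ Nat.card h.V := card_le_card_group _
  have m0 : (centralizer (W : Set G)).relIndex M ≠ 0 := index_ne_zero_of_finite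
  by_contra hh
  have hj : h.T.relIndex H = 2 := by
    by_contra hj
    have : h.T.relIndex H ≤ 1 := by omega
    have := Nat.mul_le_mul (k4.trans hV) this
    omega
  rw [hj] at e1
  have hM : M ≤ centralizer (W : Set G) := relIndex_eq_one.1 (by omega)
  have htop : (H.subgroupOf h.T).map (h.psi ha) = ⊤ := eq_top_of_le_card _ (by omega)
  obtain ⟨g, hg, hgT⟩ := SetLike.not_le_iff_exists.1
    (fun e : H ≤ h.T => by rw [relIndex_eq_one.2 e] at hj; omega)
  obtain ⟨α, hα, β, hβ, α1, hc, h4, hn⟩ := h.V_struct hV hgT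
  obtain ⟨x, hx, e⟩ : (⟨β, hβ⟩ : h.V) ∈ (H.subgroupOf h.T).map (h.psi ha) := htop ▸ mem_top _
  have e2 : dl (x : G) a = β := congrArg Subtype.val e
  have hc1 := hM (comm_mem hsq (show (x : G) ∈ H from hx) hg)
  have e3 : dl (g * x * g⁻¹) a = β := by
    rw [show g * x * g⁻¹ = x * ((x : G)⁻¹ * g * x * g⁻¹) by group,
      h.dl_mul_left x.2 (h.C_le_T hc1) ha, h.dl_C hc1 ha, mul_one, e2]
  have ha' : g⁻¹ * a * g ∈ W := by simpa using h.normal.conj_mem _ ha g⁻¹
  have e4 : (g⁻¹ * a * g) ^ 2 = a ^ 2 := by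
    rcases hW _ ha' with e' | e'
    · have : a ^ 2 = g * (g⁻¹ * a * g) ^ 2 * g⁻¹ := by simp only [pow_two]; group
      rw [this, e']; group
    · exact e'
  rw [dl_conj, h.dl_congr x.2 ha' ha e4, e2, hn g hgT] at e3
  exact α1 (by simpa using e3)

end Setup

end CA.MacW
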