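import Cfsg.Agent.Lib.Two.MacW2

/-! MacWilliams' four-generator theorem, part 3: the case `W ≅ ℤ/4 × ℤ/4` and the conclusion. -/

set_option autoImplicit false
set_option linter.unusedSectionVars false

namespace CA.MacW

open Subgroup

variable {G : Type*} [Group G] [Finite G]

/-- the case `W = ⟨a⟩ × ⟨b⟩` with `a`, `b` of order `4` and `a ^ 2` central -/
structure S44 {W : Subgroup G} (h : Setup W) (a b α β : G) : Prop where
  nE : ∀ A : Subgroup G, A.Normal → IsMulCommutative A → (∀ a ∈ A, a ^ 2 = 1) → Nat.card A ≤ 4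
  hV : Nat.card h.V ≤ 4
  ha : a ∈ W
  hb : b ∈ W
  ea : a ^ 2 = α
  eb : b ^ 2 = β
  a1 : α ≠ 1
  b1 : β ≠ 1
  ab : α ≠ β
  cen : ∀ g, g * α * g⁻¹ = α

namespace S44

variable {W : Subgroup G} {h : Setup W} {a b α β : G} (s : S44 h a b α β)
include s

theorem aV : α ∈ h.V := s.ea ▸ h.sq_mem_V s.ha
theorem bV : β ∈ h.V := s.eb ▸ h.sq_mem_V s.hb
theorem abV : α * β ∈ h.V := mul_mem s.aV s.bV
theorem aa : α * α = 1 := h.V_mul_self s.aV
theorem bb : β * β = 1 := h.V_mul_self s.bV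
theorem ba : β * α = α * β := h.V_comm s.bV s.aV
theorem aa' (x : G) : α * (α * x) = x := by rw [← mul_assoc, s.aa, one_mul]
theorem bb' (x : G) : β * (β * x) = x := by rw [← mul_assoc, s.bb, one_mul]
theorem ba' (x : G) : β * (α * x) = α * (β * x) := by rw [← mul_assoc, s.ba, mul_assoc]
theorem ab1 : α * β ≠ 1 := fun e => s.ab (mul_right_cancel (e.trans s.bb.symm))
theorem eab : (a * b) ^ 2 = α * β := by
  rw [(show Commute a b from h.comm _ s.ha _ s.hb).mul_pow, s.ea, s.eb]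
theorem V4 : 4 ≤ Nat.card h.V := (four s.hV s.aV s.bV s.a1 s.b1 s.ab s.bb).1
theorem enum {v : G} (hv : v ∈ h.V) : v = 1 ∨ v = α ∨ v = β ∨ v = α * β :=
  (four s.hV s.aV s.bV s.a1 s.b1 s.ab s.bb).2 v hv

theorem dl_cases {x w : G} (hx : x ∈ h.T) (hw : w ∈ W) :
    w ^ 2 = 1 ∨ (w ^ 2 = α ∧ dl x w = dl x a) ∨ (w ^ 2 = β ∧ dl x w = dl x b) ∨
      (w ^ 2 = α * β ∧ dl x w = dl x a * dl x b) := by
  rcases s.enum (h.sq_mem_V hw) with e | e | e | e
  · exact Or.inl e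
  · exact Or.inr (Or.inl ⟨e, h.dl_congr hx hw s.ha (e.trans s.ea.symm)⟩)
  · exact Or.inr (Or.inr (Or.inl ⟨e, h.dl_congr hx hw s.hb (e.trans s.eb.symm)⟩))
  · refine Or.inr (Or.inr (Or.inr ⟨e, ?_⟩))
    rw [h.dl_congr hx hw (mul_mem s.ha s.hb) (e.trans s.eab.symm), h.dl_mul_right x s.ha s.hb]

theorem mem_C {x : G} (hx : x ∈ h.T) (e1 : dl x a = 1) (e2 : dl x b = 1) :
    x ∈ centralizer (W : Set G) := by
  refine h.mem_C_of fun w hw => ?_
  rcases s.dl_cases hx hw with e | e | e | e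
  · exact h.dl_eq_one hx ⟨hw, e⟩
  · rw [e.2, e1]
  · rw [e.2, e2]
  · rw [e.2, e1, e2, one_mul]

theorem same {x y : G} (hx : x ∈ h.T) (hy : y ∈ h.T) (e1 : dl y a = dl x a) (e2 : dl y b = dl x b) :
    x⁻¹ * y ∈ centralizer (W : Set G) := by
  refine s.mem_C (mul_mem (inv_mem hx) hy) ?_ ?_
  · rw [h.dl_mul_left (inv_mem hx) hy s.ha, h.dl_inv hx s.ha, e1, h.V_mul_self (h.dl_V hx s.ha)]
  · rw [h.dl_mul_left (inv_mem hx) hy s.hb, h.dl_inv hx s.hb, e2, h.V_mul_self (h.dl_V hx s.hb)]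

theorem inv_of {x u v : G} (hx : x ∈ h.T) (e1 : dl x a = u) (e2 : dl x b = v) (n1 : u * α ≠ 1)
    (n2 : v * β ≠ 1) (n3 : u * v * (α * β) ≠ 1) : h.Inv x := by
  intro w hw e
  have e' : dl x w * w ^ 2 = 1 := by rw [dl, e, pow_two]; group
  rcases s.dl_cases hx hw with f | f | f | f
  · exact f
  · rw [f.1, f.2, e1] at e'; exact absurd e' n1
  · rw [f.1, f.2, e2] at e'; exact absurd e' n2
  · rw [f.1, f.2, e1, e2] at e'; exact absurd e' n3

theorem sq_V {x u v : G} (hx : x ∈ h.T) (e1 : dl x a = u) (e2 : dl x b = v) (n1 : u ≠ 1)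
    (n2 : v ≠ 1) (n3 : u * v ≠ 1) : x ^ 2 ∈ h.V := by
  refine h.fpf_C (x := x) ?_ (h.sq_C hx) (by rw [pow_two]; group)
  intro w hw e
  have e' : dl x w = 1 := by rw [dl, e]; group
  rcases s.dl_cases hx hw with f | f | f | f
  · exact f
  · rw [f.2, e1] at e'; exact absurd e' n1
  · rw [f.2, e2] at e'; exact absurd e' n2
  · rw [f.2, e1, e2] at e'; exact absurd e' n3

/-- the main lemma: an invariant coset of `C` inverting nothing of order `4` in `W` has no element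
with square in `V` -/
theorem lemmaN {y c : G} (hy : y ∈ h.T) (hC : y ∉ centralizer (W : Set G)) (hI : h.Inv y)
    (hg : ∀ g, y⁻¹ * g * y * g⁻¹ ∈ centralizer (W : Set G)) (hc : c ∈ centralizer (W : Set G)) :
    (y * c) ^ 2 ∉ h.V := by
  intro h2
  have Cn := h.C_normal
  have key : ∀ {y c : G}, h.Inv y → (∀ g, y⁻¹ * g * y * g⁻¹ ∈ centralizer (W : Set G)) →
      c ∈ centralizer (W : Set G) → h.Inv (y * c) ∧
      ∀ g, (y * c)⁻¹ * g * (y * c) * g⁻¹ ∈ centralizer (W : Set G) := by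
    intro y c hI hg hc
    refine ⟨fun w hw e => hI w hw ?_, fun g => ?_⟩
    · rw [← e]
      calc y * w * y⁻¹ = y * (w * c) * (y * c)⁻¹ := by group
        _ = _ := by rw [mem_centralizer_iff.1 hc w hw]; group
    · have e : (y * c)⁻¹ * g * (y * c) * g⁻¹ = c⁻¹ * (y⁻¹ * g * y * g⁻¹) * (g * c * g⁻¹) := by group
      rw [e]
      exact mul_mem (mul_mem (inv_mem hc) (hg g)) (Cn.conj_mem _ hc g)
  obtain ⟨hI1, hg1⟩ := key hI hg hc
  have hx : y * c ∈ h.T := mul_mem hy (h.C_le_T hc)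
  have hxC : y * c ∉ centralizer (W : Set G) := fun e => hC ((mul_mem_cancel_right hc).1 e)
  generalize y * c = x at h2 hI1 hg1 hx hxC
  have nz : ∀ w ∈ W, w ^ 2 ≠ 1 → dl x w * w ^ 2 ≠ 1 := fun w hw n e => n (hI1 w hw (by
    calc x * w * x⁻¹ = (dl x w * w ^ 2) * w⁻¹ := by rw [dl, pow_two]; group
      _ = w⁻¹ := by rw [e, one_mul]))
  have mulθ : dl x (a * b) * (a * b) ^ 2 = (dl x a * a ^ 2) * (dl x b * b ^ 2) := by
    rw [h.dl_mul_right x s.ha s.hb, s.eab, s.ea, s.eb, mul_assoc, mul_assoc, ← mul_assoc (dl x b),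
      ← mul_assoc α, h.V_comm s.aV (h.dl_V hx s.hb)]
  have pV := mul_mem (h.dl_V hx s.ha) (h.sq_mem_V s.ha)
  have qV := mul_mem (h.dl_V hx s.hb) (h.sq_mem_V s.hb)
  have h4 := (four s.hV pV qV (nz a s.ha (s.ea ▸ s.a1)) (nz b s.hb (s.eb ▸ s.b1)) (fun e => by
    have := nz _ (mul_mem s.ha s.hb) (s.eab ▸ s.ab1)
    rw [mulθ, e, h.V_mul_self qV] at this
    exact this rfl) (h.V_mul_self qV)).2 _ h2
  have : ∃ w ∈ W, dl x w * w ^ 2 = x ^ 2 := by
    rcases h4 with e | e | e | e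
    · exact ⟨1, one_mem _, by rw [e, dl]; group⟩
    · exact ⟨a, s.ha, e.symm⟩
    · exact ⟨b, s.hb, e.symm⟩
    · exact ⟨a * b, mul_mem s.ha s.hb, mulθ.trans e.symm⟩
  obtain ⟨w, hw, e⟩ := this
  obtain ⟨hI2, hg2⟩ := key hI1 hg1 (h.W_le_C hw)
  refine h.lemmaN0 s.nE s.V4 (t := x * w) ?_ (h.mem_T.1 (mul_mem hx (h.C_le_T (h.W_le_C hw))))
    (fun e => hxC ((mul_mem_cancel_right (h.W_le_C hw)).1 e)) hI2 hg2
  calc (x * w) ^ 2 = x * w * x⁻¹ * (x ^ 2 * w) := by simp only [pow_two]; group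
    _ = x * w * x⁻¹ * (w * x ^ 2) := by rw [h.comm _ h2.1 _ hw]
    _ = (dl x w * w ^ 2) * x ^ 2 := by simp only [dl, pow_two]; group
    _ = 1 := by rw [e, h.V_mul_self h2]

theorem conj_b {g : G} (hg : g ∉ h.T) : g * β * g⁻¹ = α * β := by
  rcases s.enum (h.V_normal.conj_mem _ s.bV g) with e | e | e | e
  · exact absurd (by simpa using e) s.b1
  · exfalso
    apply s.ab
    calc α = g⁻¹ * α * g⁻¹⁻¹ := (s.cen _).symm
      _ = β := by rw [← e]; group
  · exfalso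
    refine hg (h.mem_T_of fun v hv => ?_)
    rcases s.enum hv with rfl | rfl | rfl | rfl
    · group
    · exact s.cen g
    · exact e
    · rw [← conj_mul, s.cen, e]
  · exact e

theorem conj_ab {g : G} (hg : g ∉ h.T) : g * (α * β) * g⁻¹ = β := by
  rw [← conj_mul, s.cen, s.conj_b hg, s.aa']

theorem dl_conj_a {g x : G} (hx : x ∈ h.T) : dl (g * x * g⁻¹) a = g * dl x a * g⁻¹ := by
  have ha' : g⁻¹ * a * g ∈ W := by simpa using h.normal.conj_mem _ s.ha g⁻¹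
  rw [dl_conj, h.dl_congr hx ha' s.ha]
  have := s.cen g⁻¹
  rw [s.ea]
  calc (g⁻¹ * a * g) ^ 2 = g⁻¹ * a ^ 2 * g⁻¹⁻¹ := by simp only [pow_two]; group
    _ = α := by rw [s.ea, this]

theorem dl_conj_b {g x : G} (hg : g ∉ h.T) (hx : x ∈ h.T) :
    dl (g * x * g⁻¹) b = g * (dl x a * dl x b) * g⁻¹ := by
  have hb' : g⁻¹ * b * g ∈ W := by simpa using h.normal.conj_mem _ s.hb g⁻¹
  rw [dl_conj, h.dl_congr hx hb' (mul_mem s.ha s.hb), h.dl_mul_right x s.ha s.hb]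
  have := s.conj_b (g := g⁻¹) (by simpa using hg)
  rw [s.eab]
  calc (g⁻¹ * b * g) ^ 2 = g⁻¹ * b ^ 2 * g⁻¹⁻¹ := by simp only [pow_two]; group
    _ = α * β := by rw [s.eb, this]

/-- a coset without elements of order at most `4` -/
def Good (_ : S44 h a b α β) (y : G) : Prop :=
  y ∈ h.T ∧ ∀ c ∈ centralizer (W : Set G), (y * c) ^ 2 ∉ h.V

theorem good_of {y u v : G} (hy : y ∈ h.T) (e1 : dl y a = u) (e2 : dl y b = v) (n0 : u ≠ 1 ∨ v ≠ 1)
    (n1 : u * α ≠ 1) (n2 : v * β ≠ 1) (n3 : u * v * (α * β) ≠ 1)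
    (hg : ∀ g, g ∉ h.T → g * u * g⁻¹ = u ∧ g * (u * v) * g⁻¹ = v) : s.Good y := by
  refine ⟨hy, fun c hc => s.lemmaN hy (fun e => ?_) (s.inv_of hy e1 e2 n1 n2 n3) (fun g => ?_) hc⟩
  · rw [h.dl_C e s.ha] at e1
    rw [h.dl_C e s.hb] at e2
    rcases n0 with n | n
    exacts [n e1.symm, n e2.symm]
  · rw [mul_assoc, mul_assoc, ← mul_assoc g]
    have hy' := h.T_normal.conj_mem _ hy g
    by_cases hgT : g ∈ h.T
    · exact s.same hy hy' (h.dl_conj_T hgT hy s.ha) (h.dl_conj_T hgT hy s.hb)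
    · refine s.same hy hy' ?_ ?_
      · rw [s.dl_conj_a hy, e1, (hg g hgT).1]
      · rw [s.dl_conj_b hgT hy, e1, e2, (hg g hgT).2]

theorem good_e {y : G} (hy : y ∈ h.T) (e1 : dl y a = 1) (e2 : dl y b = α) : s.Good y := by
  refine s.good_of hy e1 e2 (Or.inr s.a1) (by rw [one_mul]; exact s.a1) s.ab1 ?_ fun g _ => ?_
  · rw [one_mul, s.aa']; exact s.b1
  · rw [one_mul]; exact ⟨by group, s.cen g⟩

/-- some element of `H ∩ T` acts with commutators `u`, `v` -/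
def P (_ : S44 h a b α β) (H : Subgroup G) (u v : G) : Prop :=
  ∃ x ∈ H, x ∈ h.T ∧ dl x a = u ∧ dl x b = v

theorem P_mul {H : Subgroup G} {u v u' v' : G} (p : s.P H u v) (q : s.P H u' v') :
    s.P H (u * u') (v * v') := by
  obtain ⟨x, hx, hxT, e1, e2⟩ := p
  obtain ⟨y, hy, hyT, f1, f2⟩ := q
  exact ⟨x * y, mul_mem hx hy, mul_mem hxT hyT, by rw [h.dl_mul_left hxT hyT s.ha, e1, f1],
    by rw [h.dl_mul_left hxT hyT s.hb, e2, f2]⟩

theorem P_top {H : Subgroup G} {u v : G} (p : s.P H u v) : s.P ⊤ u v := by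
  obtain ⟨x, -, hxT, e1, e2⟩ := p
  exact ⟨x, mem_top _, hxT, e1, e2⟩

theorem sq_mul_V {x y : G} (hx : x ∈ h.T) (hy : y ∈ h.T) (hI : h.Inv x) (x2 : x ^ 2 ∈ h.V)
    (y2 : y ^ 2 ∈ h.V) : (x * y) ^ 2 ∈ h.V := by
  have hc : x⁻¹ * y * x * y⁻¹ ∈ h.V := by
    refine h.inv_C hI (h.comm_C hx hy) ?_
    have e := h.T_conj hy (inv_mem x2)
    calc x * (x⁻¹ * y * x * y⁻¹) * x⁻¹ = y * x⁻¹ * y⁻¹ * (y * (x ^ 2)⁻¹ * y⁻¹)⁻¹ * x⁻¹ := by
          simp only [pow_two]; group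
      _ = (x⁻¹ * y * x * y⁻¹)⁻¹ := by rw [e]; simp only [pow_two]; group
  have e : (x * y) ^ 2 = x ^ 2 * (x⁻¹ * y * x * y⁻¹) * y ^ 2 := by simp only [pow_two]; group
  rw [e]
  exact mul_mem (mul_mem x2 hc) y2

theorem not_all : ¬ ∀ u ∈ h.V, ∀ v ∈ h.V, s.P ⊤ u v := by
  intro hall
  obtain ⟨x, -, hx, x1, x2⟩ := hall _ s.bV _ s.abV
  obtain ⟨y, -, hy, y1, y2⟩ := hall _ s.abV _ s.aV
  obtain ⟨z, -, hz, z1, z2⟩ := hall _ s.aV _ s.abV
  have a1 := s.a1
  have b1 := s.b1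
  have ab1 := s.ab1
  have hx2 := s.sq_V hx x1 x2 b1 ab1 (by simpa only [mul_assoc, s.ba', s.bb, mul_one] using a1)
  have hy2 := s.sq_V hy y1 y2 ab1 a1 (by simpa only [mul_assoc, s.ba, s.aa'] using b1)
  have hz2 := s.sq_V hz z1 z2 a1 ab1 (by simpa only [s.aa'] using b1)
  have hxI := s.inv_of hx x1 x2 (by rw [s.ba]; exact ab1)
    (by simpa only [mul_assoc, s.bb, mul_one] using a1)
    (by simpa only [mul_assoc, s.ba', s.bb', s.aa', s.bb, mul_one] using b1)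
  have hyI := s.inv_of hy y1 y2 (by simpa only [mul_assoc, s.ba, s.aa'] using b1) ab1
    (by simpa only [mul_assoc, s.ba', s.bb', s.aa', s.bb, mul_one] using a1)
  have h1 := s.sq_mul_V hy (mul_mem hx hz) hyI hy2 (s.sq_mul_V hx hz hxI hx2 hz2)
  refine (s.good_e (mul_mem hy (mul_mem hx hz)) ?_ ?_).2 1 (one_mem _) (by rwa [mul_one])
  · rw [h.dl_mul_left hy (mul_mem hx hz) s.ha, h.dl_mul_left hx hz s.ha, x1, y1, z1]
    simp only [mul_assoc, s.bb', s.aa]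
  · rw [h.dl_mul_left hy (mul_mem hx hz) s.hb, h.dl_mul_left hx hz s.hb, x2, y2, z2,
      h.V_mul_self s.abV, mul_one]

/-- the action of `T` on `W` -/
def Phi : h.T →* h.V × h.V := (h.psi s.ha).prod (h.psi s.hb)

theorem Phi_ker : s.Phi.ker = (centralizer (W : Set G)).subgroupOf h.T := by
  ext x
  rw [MonoidHom.mem_ker, mem_subgroupOf, Prod.ext_iff, Subtype.ext_iff, Subtype.ext_iff]
  exact ⟨fun e => s.mem_C x.2 e.1 e.2, fun e => ⟨h.dl_C e s.ha, h.dl_C e s.hb⟩⟩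

theorem mem_L {H : Subgroup G} {p : h.V × h.V} :
    p ∈ (H.subgroupOf h.T).map s.Phi ↔ s.P H p.1 p.2 := by
  constructor
  · rintro ⟨x, hx, rfl⟩
    exact ⟨x, hx, x.2, rfl, rfl⟩
  · rintro ⟨x, hx, hxT, e1, e2⟩
    exact ⟨⟨x, hxT⟩, hx, Prod.ext (Subtype.ext e1) (Subtype.ext e2)⟩

theorem card_L (H : Subgroup G) : Nat.card ((H.subgroupOf h.T).map s.Phi) *
    ((H.subgroupOf h.T).map s.Phi).index = 16 := by
  rw [card_mul_index, Nat.card_prod, le_antisymm s.hV s.V4]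

theorem index_L (H : Subgroup G) : ((H.subgroupOf h.T).map s.Phi).index ≠ 1 := by
  intro e
  rw [index_eq_one] at e
  exact s.not_all fun u hu v hv => s.P_top (s.mem_L (p := (⟨u, hu⟩, ⟨v, hv⟩)).1 (e ▸ mem_top _))

/-- the case of index two -/
theorem good_of_index_two {H : Subgroup G} (hi : ((H.subgroupOf h.T).map s.Phi).index = 2) :
    ∃ y ∈ H, s.Good y := by
  have two : ∀ {u v u' v' : G}, u ∈ h.V → v ∈ h.V → u' ∈ h.V → v' ∈ h.V →
      (s.P H (u * u') (v * v') ↔ (s.P H u v ↔ s.P H u' v')) := by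
    intro u v u' v' hu hv hu' hv'
    have := mul_mem_iff_of_index_two hi (a := (⟨u, hu⟩, ⟨v, hv⟩)) (b := (⟨u', hu'⟩, ⟨v', hv'⟩))
    rwa [s.mem_L, s.mem_L, s.mem_L] at this
  have up : ∀ {u v : G}, u ∈ h.V → v ∈ h.V → s.P ⊤ u v → s.P H u v := by
    intro u v hu hv p
    by_contra hn
    refine s.not_all fun u' hu' v' hv' => ?_
    by_contra hn'
    have h1 := (two hu hv hu' hv').2 (iff_of_false hn fun e => hn' (s.P_top e))
    have h2 := s.P_mul p (s.P_top h1)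
    rw [← mul_assoc, ← mul_assoc, h.V_mul_self hu, h.V_mul_self hv, one_mul, one_mul] at h2
    exact hn' h2
  have a1 := s.a1
  have b1 := s.b1
  have ab1 := s.ab1
  by_cases he : s.P H 1 α
  · obtain ⟨y, hy, hyT, e1, e2⟩ := he
    exact ⟨y, hy, s.good_e hyT e1 e2⟩
  by_cases hT : ∀ g, g ∈ h.T
  · by_cases he2 : s.P H β 1
    · obtain ⟨y, hy, hyT, e1, e2⟩ := he2
      exact ⟨y, hy, s.good_of hyT e1 e2 (Or.inl b1) (by rw [s.ba]; exact ab1)
        (by rw [one_mul]; exact b1) (by simpa only [mul_one, s.ba', s.bb] using a1)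
        fun g hg => absurd (hT g) hg⟩
    by_cases he3 : s.P H (α * β) (α * β)
    · obtain ⟨y, hy, hyT, e1, e2⟩ := he3
      exact ⟨y, hy, s.good_of hyT e1 e2 (Or.inl ab1)
        (by simpa only [mul_assoc, s.ba, s.aa'] using b1)
        (by simpa only [mul_assoc, s.bb, mul_one] using a1)
        (by rw [h.V_mul_self s.abV, one_mul]; exact ab1) fun g hg => absurd (hT g) hg⟩
    exfalso
    have n1 : ¬ s.P H β (α * β) := by
      rintro ⟨x, -, hx, x1, x2⟩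
      refine (s.good_of hx x1 x2 (Or.inl b1) (by rw [s.ba]; exact ab1)
        (by simpa only [mul_assoc, s.bb, mul_one] using a1)
        (by simpa only [mul_assoc, s.ba', s.bb', s.aa', s.bb, mul_one] using b1)
        fun g hg => absurd (hT g) hg).2 1 (one_mem _) ?_
      rw [mul_one]
      exact s.sq_V hx x1 x2 b1 ab1 (by simpa only [mul_assoc, s.ba', s.bb, mul_one] using a1)
    have n2 : ¬ s.P H (α * β) α := by
      rintro ⟨y, -, hy, y1, y2⟩
      refine (s.good_of hy y1 y2 (Or.inl ab1) (by simpa only [mul_assoc, s.ba, s.aa'] using b1) ab1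
        (by simpa only [mul_assoc, s.ba', s.bb', s.aa', s.bb, mul_one] using a1)
        fun g hg => absurd (hT g) hg).2 1 (one_mem _) ?_
      rw [mul_one]
      exact s.sq_V hy y1 y2 ab1 a1 (by simpa only [mul_assoc, s.ba, s.aa'] using b1)
    have p1 := (two s.bV s.abV s.abV s.aV).2 (iff_of_false n1 n2)
    have p2 := (two (one_mem _) s.aV s.bV (one_mem _)).2 (iff_of_false he he2)
    have p3 := s.P_mul p1 p2
    simp only [mul_assoc, s.ba', s.aa', s.bb, s.ba, mul_one, one_mul] at p3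
    exact he3 p3
  · exfalso
    push Not at hT
    obtain ⟨g, hg⟩ := hT
    have sg : ∀ {u v : G}, s.P H u v → s.P H (g * u * g⁻¹) (g * (u * v) * g⁻¹) := by
      rintro u v ⟨x, -, hx, rfl, rfl⟩
      have hx' := h.T_normal.conj_mem _ hx g
      rw [← s.dl_conj_a hx, ← s.dl_conj_b hg hx]
      exact up (h.dl_V hx' s.ha) (h.dl_V hx' s.hb) ⟨_, mem_top _, hx', rfl, rfl⟩
    have := (two s.aV (one_mem _) s.aV s.aV).2 ⟨fun p => by
      have := sg p
      rwa [mul_one, s.cen] at this, fun p => by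
      have := sg p
      rwa [s.aa, mul_one, mul_inv_cancel, s.cen] at this⟩
    rw [s.aa, one_mul] at this
    exact he this

/-- the case that `H C / C` is abelian and not contained in `T / C` -/
theorem fixed_case {H M : Subgroup G} (hsq : ∀ x ∈ H, x ^ 2 ∈ M)
    (hM : M ≤ centralizer (W : Set G)) {g : G} (hg : g ∈ H) (hgT : g ∉ h.T) :
    Nat.card ((H.subgroupOf h.T).map s.Phi) ≤ 4 ∧
      (4 ≤ Nat.card ((H.subgroupOf h.T).map s.Phi) → ∃ y ∈ H, s.Good y) := by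
  have fix : ∀ {u v : G}, s.P H u v → u = g⁻¹ * v * g * v := by
    rintro u v ⟨x, hx, hxT, rfl, rfl⟩
    have hc := hM (comm_mem hsq hx hg)
    have e : dl (g * x * g⁻¹) b = dl x b := by
      rw [show g * x * g⁻¹ = x * (x⁻¹ * g * x * g⁻¹) by group,
        h.dl_mul_left hxT (h.C_le_T hc) s.hb, h.dl_C hc s.hb, mul_one]
    rw [s.dl_conj_b hgT hxT] at e
    have e2 := h.V_mul_self (h.dl_V hxT s.hb)
    calc dl x a = g⁻¹ * (g * (dl x a * dl x b) * g⁻¹) * g * (dl x b)⁻¹ := by group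
      _ = _ := by rw [e, inv_eq_of_mul_eq_one_right e2]
  let f : (H.subgroupOf h.T).map s.Phi → h.V := fun p => p.1.2
  have hf : Function.Injective f := by
    intro p q e
    have e' : p.1.2 = q.1.2 := e
    refine Subtype.ext (Prod.ext (Subtype.ext ?_) e')
    rw [fix (s.mem_L.1 p.2), fix (s.mem_L.1 q.2), e']
  refine ⟨(Nat.card_le_card_of_injective f hf).trans s.hV, fun h4 => ?_⟩
  have hb := (Nat.bijective_iff_injective_and_card f).2
    ⟨hf, le_antisymm (Nat.card_le_card_of_injective f hf) (s.hV.trans h4)⟩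
  obtain ⟨p, hp⟩ := hb.2 ⟨α, s.aV⟩
  have e : (p.1.2 : G) = α := congrArg Subtype.val hp
  have h1 := s.mem_L.1 p.2
  have h2 := fix h1
  have := s.cen g⁻¹
  rw [inv_inv] at this
  rw [e, this, s.aa] at h2
  rw [h2, e] at h1
  obtain ⟨y, hy, hyT, e1, e2⟩ := h1
  exact ⟨y, hy, s.good_e hyT e1 e2⟩

theorem key {H M : Subgroup G} (hsq : ∀ x ∈ H, x ^ 2 ∈ M)
    (h8 : 8 * (centralizer (W : Set G)).relIndex M ≤ (centralizer (W : Set G)).relIndex H) :
    (centralizer (W : Set G)).relIndex H ≤ 8 * (centralizer (W : Set G)).relIndex M ∧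
      ∃ y ∈ H, s.Good y := by
  have e1 := h.relIndex_C H _ s.Phi_ker
  have j2 := h.relIndex_T s.hV H
  have j0 : h.T.relIndex H ≠ 0 := index_ne_zero_of_finite
  have m0 : (centralizer (W : Set G)).relIndex M ≠ 0 := index_ne_zero_of_finite
  have e2 := s.card_L H
  have i1 := s.index_L H
  have hfix : h.T.relIndex H ≠ 1 → (centralizer (W : Set G)).relIndex M = 1 →
      Nat.card ((H.subgroupOf h.T).map s.Phi) ≤ 4 ∧
      (4 ≤ Nat.card ((H.subgroupOf h.T).map s.Phi) → ∃ y ∈ H, s.Good y) := fun n e => by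
    obtain ⟨g, hg, hgT⟩ := SetLike.not_le_iff_exists.1 (fun e : H ≤ h.T => n (relIndex_eq_one.2 e))
    exact s.fixed_case hsq (relIndex_eq_one.1 e) hg hgT
  have gi := s.good_of_index_two (H := H)
  generalize Nat.card ((H.subgroupOf h.T).map s.Phi) = k at *
  generalize ((H.subgroupOf h.T).map s.Phi).index = i at *
  generalize h.T.relIndex H = j at *
  generalize (centralizer (W : Set G)).relIndex M = m at *
  rw [e1] at h8 ⊢
  have hi : i ≤ 16 := Nat.le_of_dvd (by omega) (Dvd.intro_left _ e2)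
  have hj : j = 1 ∨ j = 2 := by omega
  by_cases i2 : i = 2
  · refine ⟨?_, gi i2⟩
    subst i2
    rcases hj with rfl | rfl
    · omega
    · by_cases hm : m = 1
      · have := (hfix (by omega) hm).1
        omega
      · omega
  · have hk : k ≤ 4 := by interval_cases i <;> omega
    rcases hj with rfl | rfl
    · omega
    · exact ⟨by omega, (hfix (by omega) (by omega)).2 (by omega)⟩

end S44

theorem main (hG : IsPGroup 2 G)
    (nE : ∀ A : Subgroup G, A.Normal → IsMulCommutative A → (∀ a ∈ A, a ^ 2 = 1) → Nat.card A ≤ 4)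
    {H M : Subgroup G} (hsq : ∀ x ∈ H, x ^ 2 ∈ M) :
    Nat.card H ≤ 16 * Nat.card M := by
  have : Fact (Nat.Prime 2) := ⟨Nat.prime_two⟩
  obtain ⟨W, h⟩ := exists_setup hG
  have hV : Nat.card h.V ≤ 4 := nE _ h.V_normal
    ⟨⟨fun a b => Subtype.ext (h.V_comm a.2 b.2)⟩⟩ fun a ha => ha.2
  by_contra hh
  have h32 : 32 * Nat.card M ≤ Nat.card H := by
    obtain ⟨n, hn⟩ := IsPGroup.iff_card.1 (hG.to_subgroup H)
    obtain ⟨m, hm⟩ := IsPGroup.iff_card.1 (hG.to_subgroup M)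
    rw [hn, hm] at hh ⊢
    rw [show 16 * 2 ^ m = 2 ^ (m + 4) by ring, not_le, Nat.pow_lt_pow_iff_right (by omega)] at hh
    rw [show 32 * 2 ^ m = 2 ^ (m + 5) by ring]
    exact Nat.pow_le_pow_right (by omega) (by omega)
  set C := centralizer (W : Set G) with hC
  have eH := card_eq C H
  have eM := card_eq C M
  have hS : ∀ d ∈ C ⊓ H, d ^ 2 ∈ ((C ⊓ M : Subgroup G) : Set G) := fun d hd =>
    ⟨pow_mem hd.1 2, hsq d hd.2⟩
  have c1 : Nat.card (C ⊓ H : Subgroup G) ≤ 4 * Nat.card (C ⊓ M : Subgroup G) :=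
    h.card_sq hV inf_le_left _ hS
  have p0 : 0 < Nat.card (C ⊓ M : Subgroup G) := Nat.card_pos
  have h8 : 8 * C.relIndex M ≤ C.relIndex H := by
    refine Nat.le_of_mul_le_mul_left (c := 4 * Nat.card (C ⊓ M : Subgroup G)) ?_ (by omega)
    calc 4 * Nat.card (C ⊓ M : Subgroup G) * (8 * C.relIndex M) = 32 * Nat.card M := by
          rw [eM]; ring
      _ ≤ Nat.card H := h32
      _ ≤ _ := by rw [eH]; exact Nat.mul_le_mul_right _ c1
  by_cases hc : ∃ a ∈ W, ∃ b ∈ W, a ^ 2 ≠ 1 ∧ b ^ 2 ≠ 1 ∧ a ^ 2 ≠ b ^ 2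
  · obtain ⟨a, ha, b, hb, a1, b1, ab⟩ := hc
    have : ∃ a b α β, S44 h a b α β := by
      have := h.V_normal
      obtain ⟨α, hα, α1, hc⟩ := exists_central hG h.V (h.sq_mem_V ha) a1
      have eab : (a * b) ^ 2 = a ^ 2 * b ^ 2 := (show Commute a b from h.comm _ ha _ hb).mul_pow 2
      rcases (four hV (h.sq_mem_V ha) (h.sq_mem_V hb) a1 b1 ab
        (h.V_mul_self (h.sq_mem_V hb))).2 _ hα with e | e | e | e
      · exact absurd e α1
      · exact ⟨a, b, _, _, nE, hV, ha, hb, rfl, rfl, a1, b1, ab, e ▸ hc⟩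
      · exact ⟨b, a, _, _, nE, hV, hb, ha, rfl, rfl, b1, a1, ab.symm, e ▸ hc⟩
      · exact ⟨a * b, b, α, _, nE, hV, mul_mem ha hb, hb, eab.trans e.symm, rfl, α1, b1,
          by rw [e]; simpa using a1, hc⟩
    obtain ⟨a, b, α, β, s⟩ := this
    obtain ⟨k1, y, hy, hyT, hgood⟩ := s.key hsq h8
    have m0 : 0 < C.relIndex M := Nat.pos_of_ne_zero index_ne_zero_of_finite
    have c2 : 4 * Nat.card (C ⊓ M : Subgroup G) ≤ Nat.card (C ⊓ H : Subgroup G) := by
      refine Nat.le_of_mul_le_mul_right (c := 8 * C.relIndex M) ?_ (by omega)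
      calc 4 * Nat.card (C ⊓ M : Subgroup G) * (8 * C.relIndex M) = 32 * Nat.card M := by
            rw [eM]; ring
        _ ≤ Nat.card H := h32
        _ ≤ _ := by rw [eH]; exact Nat.mul_le_mul_left _ k1
    have hy2 : y ^ 2 ∈ ((C ⊓ M : Subgroup G) : Set G) := ⟨h.sq_C hyT, hsq y hy⟩
    have : ∃ d ∈ C, y ^ 2 = d ^ 2 := by
      by_contra hn
      push Not at hn
      have c3 := h.card_sq hV (D := C ⊓ H) inf_le_left (((C ⊓ M : Subgroup G) : Set G) \ {y ^ 2})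
        fun d hd => ⟨hS d hd, fun e => hn d hd.1 (Set.mem_singleton_iff.1 e).symm⟩
      have c4 := Set.ncard_sdiff_singleton_lt_of_mem hy2
      have c5 : ((C ⊓ M : Subgroup G) : Set G).ncard = Nat.card (C ⊓ M : Subgroup G) := rfl
      omega
    obtain ⟨d, hd, e⟩ := this
    exact hgood _ (inv_mem hd) (h.correct hd e)
  · have : ∃ a ∈ W, ∀ w ∈ W, w ^ 2 = 1 ∨ w ^ 2 = a ^ 2 := by
      by_cases h1 : ∀ w ∈ W, w ^ 2 = 1
      · exact ⟨1, one_mem _, fun w hw => Or.inl (h1 w hw)⟩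
      · push Not at h1 hc
        obtain ⟨a, ha, a1⟩ := h1
        refine ⟨a, ha, fun w hw => ?_⟩
        by_cases e : w ^ 2 = 1
        · exact Or.inl e
        · exact Or.inr (hc w hw a ha e a1)
    obtain ⟨a, ha, hW⟩ := this
    exact absurd (h.small_case hV ha hW hsq) (not_lt.2 h8)

end CA.MacW
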